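import Cfsg.Agent.CubE6.Chk2
/-!
The matrices of the root vectors on the 27-dimensional module, and the root elements.
-/
set_option autoImplicit false

namespace Cfsg.Agent.CubE6

open Cfsg.Lie Cfsg.Agent.Chev Matrix

def code (p : I27) : ℕ := 9 * p.1.val + 3 * p.2.1.val + p.2.2.val
def dec (n : ℕ) : I27 := (⟨n / 9 % 3, Nat.mod_lt _ (by norm_num)⟩, ⟨n / 3 % 3, Nat.mod_lt _ (by norm_num)⟩,
  ⟨n % 3, Nat.mod_lt _ (by norm_num)⟩)

lemma code_lt (p : I27) : code p < 27 := by
  obtain ⟨a, b, c⟩ := p; unfold code; simp only; omega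

lemma code_dec {n : ℕ} (h : n < 27) : code (dec n) = n := by
  unfold code dec; simp only; omega

lemma dec_code (p : I27) : dec (code p) = p := by
  obtain ⟨a, b, c⟩ := p
  unfold code dec
  ext <;> simp only <;> omega

lemma dec_inj {m n : ℕ} (hm : m < 27) (hn : n < 27) (h : dec m = dec n) : m = n := by
  rw [← code_dec hm, h, code_dec hn]

variable {F : Type*} [Field F]

/-- the basis vector with code `n` (zero for `n ≥ 27`) -/
def e (F : Type*) [Field F] (n : ℕ) : I27 → F := fun x => if code x = n then 1 else 0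

lemma e_big {n : ℕ} (h : 27 ≤ n) : e F n = 0 := by
  ext x
  have := code_lt x
  simp [e]; omega

lemma e_dec {n m : ℕ} (h : m < 27) : e F n (dec m) = if m = n then 1 else 0 := by
  simp [e, code_dec h]

def sF (F : Type*) [Field F] (r y : ℕ) : F := ((sg r y : ℤ) : F)

lemma sF_sq (r y : ℕ) : sF F r y * sF F r y = 1 := by
  unfold sF; rcases sg_cases r y with h | h <;> simp [h]

lemma sF_ne (r y : ℕ) : sF F r y ≠ 0 := by
  intro h; have := sF_sq (F := F) r y; rw [h] at this; simp at this

/-- the matrix of the root vector -/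
def BF (F : Type*) [Field F] (r : ℕ) : Matrix I27 I27 F :=
  Matrix.of fun x y => if img r (code y) = code x then sF F r (code y) else 0

def HF (F : Type*) [Field F] (i : ℕ) : Matrix I27 I27 F :=
  Matrix.diagonal fun x => ((hv i (code x) : ℤ) : F)

lemma mulVec_e (M : Matrix I27 I27 F) {n : ℕ} (h : n < 27) (x : I27) : (M *ᵥ e F n) x = M x (dec n) := by
  simp only [Matrix.mulVec, dotProduct, e]
  rw [Finset.sum_eq_single (dec n)]
  · simp [code_dec h]
  · intro b _ hb
    have : code b ≠ n := by
      rintro rfl; exact hb (dec_code b).symm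
    simp [this]
  · simp

lemma img_le {r y : ℕ} : img r y ≤ 27 := by
  by_cases hr : r < 72
  · by_cases hy : y < 27
    · have := allN_iff.1 (allN_iff.1 chkA_ok r hr) y hy
      simp only [Bool.and_eq_true] at this
      exact Nat.le_of_ble_eq_true this.1
    · simp [img, hr, hy]
  · simp [img, hr]

lemma img_img {r y : ℕ} : img r (img r y) = 27 := by
  by_cases hr : r < 72
  · by_cases hy : y < 27
    · have := allN_iff.1 (allN_iff.1 chkA_ok r hr) y hy
      simp only [Bool.and_eq_true] at this
      exact Nat.eq_of_beq_eq_true this.2.1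
    · have : img r y = 27 := by simp [img, hy]
      rw [this]; simp [img]
  · have : img r y = 27 := by simp [img, hr]
    rw [this]; simp [img]

lemma img_27 {r : ℕ} : img r 27 = 27 := by simp [img]

lemma img_lt {r y : ℕ} (h : img r y < 27) : r < 72 ∧ y < 27 := by
  unfold img at h
  split_ifs at h with h1 h2
  · exact ⟨h1, h2⟩
  · omega
  · omega

lemma img_sym {r y : ℕ} (h : img r y < 27) : img (71 - r) (img r y) = y ∧ sg (71 - r) (img r y) = sg r y := by
  obtain ⟨hr, hy⟩ := img_lt h
  have := allN_iff.1 (allN_iff.1 chkA_ok r hr) y hy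
  simp only [Bool.and_eq_true, Bool.or_eq_true, decide_eq_true_eq] at this
  rcases this.2.2 with h1 | h1
  · have := Nat.eq_of_beq_eq_true h1; omega
  · exact ⟨Nat.eq_of_beq_eq_true h1.1, h1.2⟩

lemma BF_e (r n : ℕ) : BF F r *ᵥ e F n = sF F r n • e F (img r n) := by
  by_cases h : n < 27
  · ext x
    rw [mulVec_e _ h]
    simp only [BF, Matrix.of_apply, code_dec h, Pi.smul_apply, e, smul_eq_mul]
    split_ifs with h1 h2 h2
    · simp
    · exact absurd h1.symm h2
    · exact absurd h2.symm h1
    · simp
  · rw [e_big (not_lt.1 h), Matrix.mulVec_zero]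
    have : img r n = 27 := by simp [img, h]
    rw [this, e_big le_rfl, smul_zero]

lemma HF_e (i n : ℕ) : HF F i *ᵥ e F n = ((hv i n : ℤ) : F) • e F n := by
  ext x
  simp only [HF, Matrix.mulVec_diagonal, e, Pi.smul_apply, smul_eq_mul]
  split_ifs with h
  · rw [h]
  · simp

lemma mat_ext {A B : Matrix I27 I27 F} (h : ∀ n < 27, A *ᵥ e F n = B *ᵥ e F n) : A = B := by
  ext x y
  have := congrFun (h (code y) (code_lt y)) x
  rwa [mulVec_e _ (code_lt y), mulVec_e _ (code_lt y), dec_code] at this

lemma BF_sq (r : ℕ) : BF F r * BF F r = 0 := by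
  apply mat_ext
  intro n _
  rw [← Matrix.mulVec_mulVec, BF_e, Matrix.mulVec_smul, BF_e, img_img, e_big le_rfl]
  simp

/-- coordinates of `B_r v` -/
lemma BF_v (r : ℕ) (hr : r < 72) (v : I27 → F) {x : ℕ} (hx : x < 27) :
    (BF F r *ᵥ v) (dec x) = if img (71 - r) x < 27 then sF F (71 - r) x * v (dec (img (71 - r) x)) else 0 := by
  simp only [Matrix.mulVec, dotProduct, BF, Matrix.of_apply, code_dec hx]
  split_ifs with h
  · rw [Finset.sum_eq_single (dec (img (71 - r) x))]
    · rw [code_dec h]
      have h1 := img_sym h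
      rw [show 71 - (71 - r) = r by omega] at h1
      rw [if_pos h1.1]
      unfold sF; rw [h1.2]
    · intro b _ hb
      rw [if_neg, zero_mul]
      intro h2
      have h3 : img r (code b) < 27 := by omega
      have h4 := (img_sym h3).1
      rw [h2] at h4
      apply hb; rw [h4, dec_code]
    · simp
  · apply Finset.sum_eq_zero
    intro b _
    rw [if_neg, zero_mul]
    intro h2
    have h3 : img r (code b) < 27 := by omega
    have h4 := (img_sym h3).1
    rw [h2] at h4
    exact h (h4 ▸ code_lt b)

/-- root elements -/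
def X (r : ℕ) (t : F) : GL I27 F where
  val := 1 + t • BF F r
  inv := 1 - t • BF F r
  val_inv := by
    simp only [add_mul, mul_sub, one_mul, mul_one, Matrix.smul_mul, Matrix.mul_smul, BF_sq]
    simp
  inv_val := by
    simp only [sub_mul, mul_add, one_mul, mul_one, Matrix.smul_mul, Matrix.mul_smul, BF_sq]
    simp

lemma X_val (r : ℕ) (t : F) : ((X r t : GL I27 F) : Matrix I27 I27 F) = 1 + t • BF F r := rfl

lemma X_vec (r : ℕ) (t : F) (v : I27 → F) :
    ((X r t : GL I27 F) : Matrix I27 I27 F) *ᵥ v = v + t • (BF F r *ᵥ v) := by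
  rw [X_val, Matrix.add_mulVec, Matrix.one_mulVec, Matrix.smul_mulVec]

/-- the group generated by the root elements -/
def E (F : Type*) [Field F] : Subgroup (GL I27 F) := Subgroup.closure {g | ∃ r < 72, ∃ t : F, g = X r t}

lemma X_mem {r : ℕ} (hr : r < 72) (t : F) : X r t ∈ E F := Subgroup.subset_closure ⟨r, hr, t, rfl⟩

end Cfsg.Agent.CubE6
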