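import Cfsg.Agent.CubE6.Tab
import Cfsg.Agent.Chev.DataE6
/-!
Kernel checks of the tables.
-/
set_option autoImplicit false
set_option maxRecDepth 100000

namespace Cfsg.Agent.CubE6

open Cfsg.Lie Cfsg.Agent.Chev

/-- basic check: targets, symmetry, square zero -/
def chkA : Bool := allN 72 fun r => allN 27 fun y =>
  Nat.ble (img r y) 27 && (Nat.beq (img r (img r y)) 27 &&
    (Nat.beq (img r y) 27 || (Nat.beq (img (71 - r) (img r y)) y && decide (sg (71 - r) (img r y) = sg r y))))

theorem chkA_ok : chkA = true := by decide +kernel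

/-- bracket check -/
def chkB1 (r s : ℕ) : Bool :=
  (allN 27 fun n => Nat.beq (img r (img s (img r n))) 27) &&
  match chevE6.chainEntry r s with
  | [] => allN 27 fun n =>
      (Nat.beq (img r (img s n)) 27 && Nat.beq (img s (img r n)) 27) ||
      (Nat.beq (img r (img s n)) (img s (img r n)) &&
        decide (sg s n * sg r (img s n) = sg r n * sg s (img r n)))
  | [q] => allN 27 fun n =>
      (Nat.beq (img r (img s n)) 27 && (Nat.beq (img s (img r n)) 27 && Nat.beq (img q.1 n) 27)) ||
      ((Nat.beq (img r (img s n)) 27 && (Nat.beq (img s (img r n)) (img q.1 n) &&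
        decide (sg r n * sg s (img r n) + q.2 * sg q.1 n = 0))) ||
      (Nat.beq (img s (img r n)) 27 && (Nat.beq (img r (img s n)) (img q.1 n) &&
        decide (sg s n * sg r (img s n) = q.2 * sg q.1 n))))
  | _ => false

def chkB (a b : ℕ) : Bool := allN b fun k => allN 72 fun s =>
  Nat.beq s (a + k) || (Nat.beq s (71 - (a + k)) || chkB1 (a + k) s)

theorem chkB_0 : chkB 0 18 = true := by decide +kernel
theorem chkB_1 : chkB 18 18 = true := by decide +kernel
theorem chkB_2 : chkB 36 18 = true := by decide +kernel
theorem chkB_3 : chkB 54 18 = true := by decide +kernel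

end Cfsg.Agent.CubE6
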