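import Cfsg.Agent.CubE6.Chk
/-!
Kernel checks of the tables, part 2.
-/
set_option autoImplicit false
set_option maxRecDepth 100000

namespace Cfsg.Agent.CubE6

open Cfsg.Lie Cfsg.Agent.Chev

def chkH : Bool := allN 6 fun i => allN 72 fun r => allN 27 fun n =>
  Nat.beq (img r n) 27 || decide (hv i (img r n) - hv i n = chevE6.cartan i r)

theorem chkH_ok : chkH = true := by decide +kernel

def chkHR : Bool := allN 72 fun r => allN 27 fun n =>
  decide (cc chevE6 r 0 * hv 0 n + cc chevE6 r 1 * hv 1 n + cc chevE6 r 2 * hv 2 n + cc chevE6 r 3 * hv 3 n +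
    cc chevE6 r 4 * hv 4 n + cc chevE6 r 5 * hv 5 n =
    (if img (71 - r) n = 27 then 0 else 1) - (if img r n = 27 then 0 else 1))

theorem chkHR_ok : chkHR = true := by decide +kernel

def chkNeg : Bool := allN 72 fun r => Nat.beq (chevE6.neg r) (71 - r)

theorem chkNeg_ok : chkNeg = true := by decide +kernel

/-- the roots between weights -/
def chkR1 : Bool := (allN 72 fun r => allN 27 fun y => Nat.beq (img r y) 27 || Nat.beq (rt y (img r y)) r) &&
  allN 27 fun x => allN 27 fun y => Nat.blt 71 (rt x y) || Nat.beq (img (rt x y) x) y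

theorem chkR1_ok : chkR1 = true := by decide +kernel

def chkC : Bool := allN 27 fun w => allN 27 fun x => Nat.blt 71 (rt w x) ||
  (Nat.beq (img (71 - rt w x) w) 27 &&
    allN 27 fun y => Nat.blt 71 (rt w y) || (Nat.beq x y || Nat.beq (img (71 - rt w x) y) 27))

theorem chkC_ok : chkC = true := by decide +kernel

/-- triads -/
def chkT1 : Bool := allN 27 fun a => allN 27 fun x =>
  Nat.ble (third a x) 27 &&
  ((Nat.beq (third a x) 27 || (Nat.beq (third a (third a x)) x && (Nat.beq (third x a) (third a x) &&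
    Nat.beq (third (third a x) x) a))) &&
  ((Nat.beq x a || (Nat.blt (rt a x) 72 || Nat.blt (third a x) 27)) &&
   (!(Nat.beq x a || Nat.blt (rt a x) 72) || Nat.beq (third a x) 27)))

theorem chkT1_ok : chkT1 = true := by decide +kernel

/-- contribution of a monomial to `T(e_a, v, e_z)` -/
def ctT (a z : ℕ) (τ : ℤ × ℕ × ℕ × ℕ) : List (ℤ × ℕ) :=
  (if a = τ.2.1 ∧ z = τ.2.2.2 then [(τ.1, τ.2.2.1)] else []) ++
  ((if a = τ.2.1 ∧ z = τ.2.2.1 then [(τ.1, τ.2.2.2)] else []) ++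
  ((if a = τ.2.2.1 ∧ z = τ.2.2.2 then [(τ.1, τ.2.1)] else []) ++
  ((if a = τ.2.2.1 ∧ z = τ.2.1 then [(τ.1, τ.2.2.2)] else []) ++
  ((if a = τ.2.2.2 ∧ z = τ.2.2.1 then [(τ.1, τ.2.1)] else []) ++
   (if a = τ.2.2.2 ∧ z = τ.2.1 then [(τ.1, τ.2.2.1)] else [])))))

def chkT2 : Bool := allN 27 fun a => allN 27 fun z =>
  decide (triL.flatMap (ctT a z) = if third a z = 27 then [] else [(eps a z, third a z)])

theorem chkT2_ok : chkT2 = true := by decide +kernel

/-- contribution of a monomial to `D(u, e_b)` -/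
def ctD (b : ℕ) (τ : ℤ × ℕ × ℕ × ℕ) : List (ℤ × ℕ × ℕ) :=
  (if b = τ.2.1 then [(τ.1, τ.2.2.1, τ.2.2.2)] else []) ++
  ((if b = τ.2.2.1 then [(τ.1, τ.2.1, τ.2.2.2)] else []) ++
  (if b = τ.2.2.2 then [(τ.1, τ.2.1, τ.2.2.1)] else []))

def chkD : Bool := allN 27 fun w => allN 27 fun x => Nat.beq (third w x) 27 ||
  decide ((triL.flatMap (ctD (third w x))).filter (fun τ => !(Nat.blt (rt w τ.2.1) 72 || Nat.blt (rt w τ.2.2) 72))
    = [(eps w x, min w x, max w x)])

theorem chkD_ok : chkD = true := by decide +kernel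

theorem triL_ok : ∀ τ ∈ triL, τ.2.1 < τ.2.2.1 ∧ τ.2.2.1 < τ.2.2.2 ∧ τ.2.2.2 < 27 := by decide +kernel

theorem eps_cases (a b : ℕ) : eps a b = 1 ∨ eps a b = -1 := by
  unfold eps; split_ifs <;> simp

theorem sg_cases (a b : ℕ) : sg a b = 1 ∨ sg a b = -1 := by
  unfold sg; split_ifs <;> simp

end Cfsg.Agent.CubE6
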