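import Cfsg.Agent.CubE6.Tab
import Cfsg.Agent.Chev.Tab
/-!
Kernel checks of the tables, part 3: invariance of the form, stages, torus.
-/
set_option autoImplicit false
set_option maxRecDepth 100000

namespace Cfsg.Agent.CubE6

open Cfsg.Agent.Chev

def pre (r x : ℕ) : ℕ := img (71 - r) x

/-- code of the sorted triple -/
def key (a b c : ℕ) : ℕ :=
  if a ≤ b then (if b ≤ c then 729 * a + 27 * b + c else if a ≤ c then 729 * a + 27 * c + b else 729 * c + 27 * a + b)
  else (if a ≤ c then 729 * b + 27 * a + c else if b ≤ c then 729 * b + 27 * c + a else 729 * c + 27 * b + a)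

def linL (r : ℕ) (τ : ℤ × ℕ × ℕ × ℕ) : List (ℤ × ℕ) :=
  (if pre r τ.2.1 < 27 then [(τ.1 * sg (71 - r) τ.2.1, key (pre r τ.2.1) τ.2.2.1 τ.2.2.2)] else []) ++
  ((if pre r τ.2.2.1 < 27 then [(τ.1 * sg (71 - r) τ.2.2.1, key τ.2.1 (pre r τ.2.2.1) τ.2.2.2)] else []) ++
  (if pre r τ.2.2.2 < 27 then [(τ.1 * sg (71 - r) τ.2.2.2, key τ.2.1 τ.2.2.1 (pre r τ.2.2.2))] else []))

def coef (L : List (ℤ × ℕ)) (k : ℕ) : ℤ := ((L.filter (fun p => Nat.beq p.2 k)).map Prod.fst).sum

def chkI : Bool := allN 72 fun r =>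
  (triL.flatMap (linL r)).all (fun p => decide (coef (triL.flatMap (linL r)) p.2 = 0)) &&
  triL.all (fun τ => (Nat.ble 27 (pre r τ.2.1) && Nat.ble 27 (pre r τ.2.2.1)) ||
    ((Nat.ble 27 (pre r τ.2.1) && Nat.ble 27 (pre r τ.2.2.2)) || (Nat.ble 27 (pre r τ.2.2.1) && Nat.ble 27 (pre r τ.2.2.2))))

theorem chkI_ok : chkI = true := by decide +kernel

/-! ### stages -/

def inR (W : List ℕ) (r : ℕ) : Bool := Nat.blt r 72 && W.all (fun w => Nat.beq (img r w) 27)
def adjR (W : List ℕ) (x y : ℕ) : Bool := inR W (rt x y)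
def killB (W : List ℕ) (w x : ℕ) : Bool :=
  (W.any fun a => (Nat.beq a w || Nat.blt (rt a w) 72) && Nat.blt (third a x) 27) ||
    (!(Nat.beq x w) && W.any fun a => W.any fun b => Nat.beq (third a b) x)
def reachB (W : List ℕ) (w x : ℕ) : Bool :=
  Nat.beq x w || (adjR W x w || (List.range 27).any (fun b => adjR W x b && adjR W b w))
def clearB (W : List ℕ) (w : ℕ) : Bool :=
  (List.range 27).all fun x => Nat.blt 71 (rt w x) || (killB W w x || adjR W w x)
def caseA (W : List ℕ) (w : ℕ) : Bool := W.any fun a => W.any fun b => Nat.beq (third a b) w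
def caseB (W : List ℕ) (w : ℕ) : Bool := W.any fun a => Nat.blt (third a w) 27 &&
  (List.range 27).all fun x => Nat.blt 26 (third a x) || (killB W w x || reachB W w x)
def caseC (W : List ℕ) (w : ℕ) : Bool := (List.range 27).all fun x => killB W w x || reachB W w x
def stageB (W : List ℕ) (w : ℕ) : Bool := clearB W w && (caseA W w || (caseB W w || caseC W w))

def runB : List ℕ → List ℕ → Bool
  | _, [] => true
  | W, w :: l => stageB W w && runB (w :: W) l

theorem run_ok : runB [] ord = true := by decide +kernel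

theorem ord_all : ∀ n < 27, n ∈ ord := by decide +kernel

/-! ### torus -/

def torB : List ℕ → List (ℕ × ℕ) → Bool
  | _, [] => true
  | K, p :: l => (Nat.blt p.2 72 && (Nat.blt (pre p.2 p.1) 27 && K.all (fun k => Nat.beq (pre p.2 k) 27 && Nat.beq (img p.2 k) 27)))
      && torB (p.1 :: K) l

theorem tor_ok : torB [] torX = true := by decide +kernel

def cloB : List ℕ → List (ℕ × ℕ × ℕ) → Bool
  | _, [] => true
  | K, p :: l => (Nat.blt p.2.2 27 && (K.contains p.1 && (K.contains p.2.1 && Nat.beq (third p.1 p.2.1) p.2.2))) && cloB (p.2.2 :: K) l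

theorem clo_ok : cloB (torX.map Prod.fst) clo = true := by decide +kernel

theorem clo_all : ∀ n < 27, n ∈ clo.map (fun p => p.2.2) ∨ n ∈ torX.map Prod.fst := by decide +kernel

end Cfsg.Agent.CubE6
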