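import Cfsg.Agent.CubE6.Alg
import Cfsg.Agent.CubE6.Chk3
/-!
The cubic form and its polarizations.
-/
set_option autoImplicit false

namespace Cfsg.Agent.CubE6

open Cfsg.Lie Cfsg.Agent.Chev Matrix

variable {F : Type*} [Field F]

def mono (u v w : I27 → F) (τ : ℤ × ℕ × ℕ × ℕ) : F :=
  (τ.1 : F) * (u (dec τ.2.1) * v (dec τ.2.2.1) * w (dec τ.2.2.2))

def f27 (v : I27 → F) : F := (triL.map fun τ => mono v v v τ).sum
def DD (u v : I27 → F) : F := (triL.map fun τ => mono v u u τ + mono u v u τ + mono u u v τ).sum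
def TT (u v w : I27 → F) : F := (triL.map fun τ => mono u v w τ + mono u w v τ + mono v u w τ + mono v w u τ +
  mono w u v τ + mono w v u τ).sum

set_option maxHeartbeats 4000000 in
set_option maxRecDepth 100000 in
lemma cubicT_eq (v : I27 → F) : cubicT v = f27 v := by
  unfold cubicT f27 triL
  simp only [Matrix.det_fin_three, Matrix.trace_fin_three, Matrix.mul_apply, Fin.sum_univ_three, mat3, Matrix.of_apply,
    List.map_cons, List.map_nil, List.sum_cons, List.sum_nil, mono]
  simp only [show dec 0 = (0, 0, 0) from rfl, show dec 1 = (0, 0, 1) from rfl, show dec 2 = (0, 0, 2) from rfl, show dec 3 = (0, 1, 0) from rfl, show dec 4 = (0, 1, 1) from rfl, show dec 5 = (0, 1, 2) from rfl, show dec 6 = (0, 2, 0) from rfl, show dec 7 = (0, 2, 1) from rfl, show dec 8 = (0, 2, 2) from rfl, show dec 9 = (1, 0, 0) from rfl, show dec 10 = (1, 0, 1) from rfl, show dec 11 = (1, 0, 2) from rfl, show dec 12 = (1, 1, 0) from rfl, show dec 13 = (1, 1, 1) from rfl, show dec 14 = (1, 1, 2) from rfl, show dec 15 = (1, 2,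 0) from rfl, show dec 16 = (1, 2, 1) from rfl, show dec 17 = (1, 2, 2) from rfl, show dec 18 = (2, 0, 0) from rfl, show dec 19 = (2, 0, 1) from rfl, show dec 20 = (2, 0, 2) from rfl, show dec 21 = (2, 1, 0) from rfl, show dec 22 = (2, 1, 1) from rfl, show dec 23 = (2, 1, 2) from rfl, show dec 24 = (2, 2, 0) from rfl, show dec 25 = (2, 2, 1) from rfl, show dec 26 = (2, 2, 2) from rfl]
  push_cast
  ring

lemma f27_add (u v : I27 → F) (c : F) :
    f27 (u + c • v) = f27 u + c * DD u v + c ^ 2 * DD v u + c ^ 3 * f27 v := by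
  simp only [f27, DD, ← List.sum_map_mul_left, ← List.sum_map_add]
  congr 1
  apply List.map_congr_left
  intro τ _
  simp only [mono, Pi.add_apply, Pi.smul_apply, smul_eq_mul]
  ring

lemma DD_add (u w v : I27 → F) : DD (u + w) v = DD u v + DD w v + TT u w v := by
  simp only [TT, DD, ← List.sum_map_add]
  congr 1
  apply List.map_congr_left
  intro τ _
  simp only [mono, Pi.add_apply]
  ring

lemma DD_smul (c : F) (u v : I27 → F) : DD (c • u) v = c ^ 2 * DD u v := by
  simp only [DD, ← List.sum_map_mul_left]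
  congr 1
  apply List.map_congr_left
  intro τ _
  simp only [mono, Pi.smul_apply, smul_eq_mul]
  ring

lemma DD_smul' (c : F) (u v : I27 → F) : DD u (c • v) = c * DD u v := by
  simp only [DD, ← List.sum_map_mul_left]
  congr 1
  apply List.map_congr_left
  intro τ _
  simp only [mono, Pi.smul_apply, smul_eq_mul]
  ring

lemma TT_smul1 (c : F) (u v w : I27 → F) : TT (c • u) v w = c * TT u v w := by
  simp only [TT, ← List.sum_map_mul_left]
  congr 1
  apply List.map_congr_left
  intro τ _
  simp only [mono, Pi.smul_apply, smul_eq_mul]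
  ring

lemma TT_smul2 (c : F) (u v w : I27 → F) : TT u (c • v) w = c * TT u v w := by
  simp only [TT, ← List.sum_map_mul_left]
  congr 1
  apply List.map_congr_left
  intro τ _
  simp only [mono, Pi.smul_apply, smul_eq_mul]
  ring

lemma TT_smul3 (c : F) (u v w : I27 → F) : TT u v (c • w) = c * TT u v w := by
  simp only [TT, ← List.sum_map_mul_left]
  congr 1
  apply List.map_congr_left
  intro τ _
  simp only [mono, Pi.smul_apply, smul_eq_mul]
  ring

lemma TT_add3 (u v w w' : I27 → F) : TT u v (w + w') = TT u v w + TT u v w' := by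
  simp only [TT, ← List.sum_map_add]
  congr 1
  apply List.map_congr_left
  intro τ _
  simp only [mono, Pi.add_apply]
  ring

lemma TT_comm (u v w : I27 → F) : TT u v w = TT u w v := by
  simp only [TT]
  congr 1
  apply List.map_congr_left
  intro τ _
  ring

/-- `T` vanishes if it does on the basis -/
lemma TT_zero {u v : I27 → F} (h : ∀ n < 27, TT u v (e F n) = 0) (w : I27 → F) : TT u v w = 0 := by
  let φ : (I27 → F) →ₗ[F] F :=
    { toFun := TT u v
      map_add' := TT_add3 u v
      map_smul' := fun c w => TT_smul3 c u v w }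
  have : φ = 0 := by
    apply (Pi.basisFun F I27).ext
    intro i
    have h1 : (Pi.basisFun F I27) i = e F (code i) := by
      ext x
      simp only [Pi.basisFun_apply, e, Pi.single_apply]
      by_cases hx : x = i
      · simp [hx]
      · rw [if_neg hx, if_neg]
        intro h2; apply hx; rw [← dec_code x, h2, dec_code]
    rw [h1]
    exact h _ (code_lt i)
  exact congrArg (fun g : (I27 → F) →ₗ[F] F => g w) this

lemma sum_flatMap {α β : Type*} (L : List α) (g : α → List β) (val : β → F) (h : α → F)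
    (hh : ∀ a ∈ L, h a = ((g a).map val).sum) : (L.map h).sum = ((L.flatMap g).map val).sum := by
  induction L with
  | nil => simp
  | cons a L ih =>
    simp only [List.map_cons, List.sum_cons, List.flatMap_cons, List.map_append, List.sum_append]
    rw [hh a (by simp), ih (fun b hb => hh b (by simp [hb]))]

lemma TT_e {a z : ℕ} (ha : a < 27) (hz : z < 27) (v : I27 → F) :
    TT (e F a) v (e F z) = if third a z = 27 then 0 else ((eps a z : ℤ) : F) * v (dec (third a z)) := by
  have h0 := allN_iff.1 (allN_iff.1 chkT2_ok a ha) z hz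
  simp only [decide_eq_true_eq] at h0
  unfold TT
  rw [sum_flatMap triL (ctT a z) (fun p : ℤ × ℕ => (p.1 : F) * v (dec p.2)), h0]
  · split_ifs <;> simp
  · rintro ⟨ε, p, q, s⟩ hτ
    obtain ⟨h1, h2, h3⟩ := triL_ok _ hτ
    simp only at h1 h2 h3
    simp only [mono, ctT, List.map_append, List.sum_append, e_dec (show p < 27 by omega),
      e_dec (show q < 27 by omega), e_dec h3]
    have key : ∀ (P Q : Prop) [Decidable P] [Decidable Q] (x : F) (m : ℕ),
        (((if P ∧ Q then [(ε, m)] else [] : List (ℤ × ℕ)).map fun p : ℤ × ℕ => (p.1 : F) * v (dec p.2)).sum)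
        = (ε : F) * ((if P then 1 else 0) * (if Q then 1 else 0) * v (dec m)) := by
      intro P Q _ _ _ m
      by_cases hP : P <;> by_cases hQ : Q <;> simp [hP, hQ]
    simp only [key _ _ (0 : F)]
    have hc : ∀ m n : ℕ, (if m = n then (1 : F) else 0) = if n = m then 1 else 0 := by
      intro m n; simp [eq_comm]
    rw [hc p a, hc q a, hc s a, hc p z, hc q z, hc s z]
    ring

lemma DD_e (u : I27 → F) (b : ℕ) :
    DD u (e F b) = ((triL.flatMap (ctD b)).map fun p : ℤ × ℕ × ℕ => (p.1 : F) * (u (dec p.2.1) * u (dec p.2.2))).sum := by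
  unfold DD
  rw [sum_flatMap triL (ctD b) (fun p : ℤ × ℕ × ℕ => (p.1 : F) * (u (dec p.2.1) * u (dec p.2.2)))]
  rintro ⟨ε, p, q, s⟩ hτ
  obtain ⟨h1, h2, h3⟩ := triL_ok _ hτ
  simp only at h1 h2 h3
  simp only [mono, ctD, List.map_append, List.sum_append, e_dec (show p < 27 by omega),
    e_dec (show q < 27 by omega), e_dec h3]
  have key : ∀ (P : Prop) [Decidable P] (m n : ℕ),
      (((if P then [(ε, m, n)] else [] : List (ℤ × ℕ × ℕ)).map
        fun p : ℤ × ℕ × ℕ => (p.1 : F) * (u (dec p.2.1) * u (dec p.2.2))).sum)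
      = (ε : F) * ((if P then 1 else 0) * (u (dec m) * u (dec n))) := by
    intro P _ m n
    by_cases hP : P <;> simp [hP]
  simp only [key]
  have hc : ∀ m n : ℕ, (if m = n then (1 : F) else 0) = if n = m then 1 else 0 := by
    intro m n; simp [eq_comm]
  rw [hc p b, hc q b, hc s b]
  ring

lemma DD_ee (w : ℕ) (v : I27 → F) : DD (e F w) v = 0 := by
  unfold DD
  apply List.sum_eq_zero
  intro x hx
  obtain ⟨⟨ε, p, q, s⟩, hτ, rfl⟩ := List.mem_map.1 hx
  obtain ⟨h1, h2, h3⟩ := triL_ok _ hτ
  simp only at h1 h2 h3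
  simp only [mono, e_dec (show p < 27 by omega), e_dec (show q < 27 by omega), e_dec h3]
  by_cases hp : p = w
  · subst hp
    have a1 : q ≠ p := by omega
    have a2 : s ≠ p := by omega
    simp [a1, a2]
  · by_cases hq : q = w
    · subst hq
      have a2 : s ≠ q := by omega
      simp [hp, a2]
    · simp [hp, hq]

/-! ### invariance under the root elements -/

def VV (v : I27 → F) (k : ℕ) : F := v (dec (k / 729)) * v (dec (k / 27 % 27)) * v (dec (k % 27))

lemma VV_code (v : I27 → F) {a b c : ℕ} (ha : a < 27) (hb : b < 27) (hc : c < 27) :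
    VV v (729 * a + 27 * b + c) = v (dec a) * v (dec b) * v (dec c) := by
  unfold VV
  rw [show (729 * a + 27 * b + c) / 729 = a by omega, show (729 * a + 27 * b + c) / 27 % 27 = b by omega,
    show (729 * a + 27 * b + c) % 27 = c by omega]

lemma VV_key (v : I27 → F) {a b c : ℕ} (ha : a < 27) (hb : b < 27) (hc : c < 27) :
    VV v (key a b c) = v (dec a) * v (dec b) * v (dec c) := by
  unfold key
  split_ifs
  · rw [VV_code v ha hb hc]
  · rw [VV_code v ha hc hb]; ring
  · rw [VV_code v hc ha hb]; ring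
  · rw [VV_code v hb ha hc]; ring
  · rw [VV_code v hb hc ha]; ring
  · rw [VV_code v hc hb ha]; ring

lemma cancel_aux (S : Finset ℕ) (V : ℕ → F) : ∀ L : List (ℤ × ℕ), (∀ p ∈ L, p.2 ∈ S) →
    (L.map fun p : ℤ × ℕ => (p.1 : F) * V p.2).sum = ∑ k ∈ S, ((coef L k : ℤ) : F) * V k
  | [], _ => by simp [coef]
  | a :: L, h => by
      have ih := cancel_aux S V L (fun p hp => h p (by simp [hp]))
      have h1 : ∀ k, coef (a :: L) k = (if k = a.2 then a.1 else 0) + coef L k := by
        intro k
        unfold coef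
        by_cases hk : k = a.2
        · subst hk; simp
        · have : Nat.beq a.2 k = false := by
            rw [Bool.eq_false_iff]; intro h2; exact hk (Nat.eq_of_beq_eq_true h2).symm
          simp [hk, this]
      simp only [List.map_cons, List.sum_cons, ih, h1, Int.cast_add, add_mul, Finset.sum_add_distrib]
      congr 1
      rw [Finset.sum_eq_single a.2]
      · simp
      · intro b _ hb; simp [hb]
      · intro h2; exact absurd (h a (by simp)) h2

lemma cancel {L : List (ℤ × ℕ)} (h : ∀ p ∈ L, coef L p.2 = 0) (V : ℕ → F) :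
    (L.map fun p : ℤ × ℕ => (p.1 : F) * V p.2).sum = 0 := by
  rw [cancel_aux (L.map Prod.snd).toFinset V L (by
    intro p hp; rw [List.mem_toFinset]; exact List.mem_map_of_mem hp)]
  apply Finset.sum_eq_zero
  intro k hk
  rw [List.mem_toFinset] at hk
  obtain ⟨p, hp, rfl⟩ := List.mem_map.1 hk
  rw [h p hp]; simp

lemma f27_X {r : ℕ} (hr : r < 72) (t : F) (v : I27 → F) : f27 (v + t • (BF F r *ᵥ v)) = f27 v := by
  have h0 := allN_iff.1 chkI_ok r hr
  simp only [Bool.and_eq_true, List.all_eq_true, decide_eq_true_eq, Bool.or_eq_true] at h0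
  obtain ⟨h1, h2⟩ := h0
  have hc := cancel (F := F) (L := triL.flatMap (linL r)) (fun p hp => h1 p hp) (VV v)
  have hw : ∀ x < 27, (BF F r *ᵥ v) (dec x) =
      if pre r x < 27 then sF F (71 - r) x * v (dec (pre r x)) else 0 := fun x hx => BF_v r hr v hx
  have key : ∀ τ ∈ triL, mono (v + t • (BF F r *ᵥ v)) (v + t • (BF F r *ᵥ v)) (v + t • (BF F r *ᵥ v)) τ - mono v v v τ
      = t * (((linL r τ).map fun p : ℤ × ℕ => (p.1 : F) * VV v p.2).sum) := by
    rintro ⟨ε, p, q, s⟩ hτ
    obtain ⟨a1, a2, a3⟩ := triL_ok _ hτ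
    simp only at a1 a2 a3
    have hp : p < 27 := by omega
    have hq : q < 27 := by omega
    have k1 := fun (h : pre r p < 27) => VV_key v h hq a3
    have k2 := fun (h : pre r q < 27) => VV_key v hp h a3
    have k3 := fun (h : pre r s < 27) => VV_key v hp hq h
    have h3 := h2 _ hτ
    simp only at h3
    simp only [mono, linL, Pi.add_apply, Pi.smul_apply, smul_eq_mul, hw p hp, hw q hq, hw s a3, List.map_append,
      List.sum_append]
    rcases h3 with ⟨b1, b2⟩ | ⟨b1, b2⟩ | ⟨b1, b2⟩
    · have b1' : ¬ pre r p < 27 := not_lt.2 (Nat.le_of_ble_eq_true b1)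
      have b2' : ¬ pre r q < 27 := not_lt.2 (Nat.le_of_ble_eq_true b2)
      simp only [b1', b2', if_false]
      by_cases b3 : pre r s < 27
      · simp only [b3, if_true, List.map_nil, List.sum_nil, List.map_cons, List.sum_cons, k3 b3, sF]
        push_cast; ring
      · simp only [b3, if_false, List.map_nil, List.sum_nil]; ring
    · have b1' : ¬ pre r p < 27 := not_lt.2 (Nat.le_of_ble_eq_true b1)
      have b2' : ¬ pre r s < 27 := not_lt.2 (Nat.le_of_ble_eq_true b2)
      simp only [b1', b2', if_false]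
      by_cases b3 : pre r q < 27
      · simp only [b3, if_true, List.map_nil, List.sum_nil, List.map_cons, List.sum_cons, k2 b3, sF]
        push_cast; ring
      · simp only [b3, if_false, List.map_nil, List.sum_nil]; ring
    · have b1' : ¬ pre r q < 27 := not_lt.2 (Nat.le_of_ble_eq_true b1)
      have b2' : ¬ pre r s < 27 := not_lt.2 (Nat.le_of_ble_eq_true b2)
      simp only [b1', b2', if_false]
      by_cases b3 : pre r p < 27
      · simp only [b3, if_true, List.map_nil, List.sum_nil, List.map_cons, List.sum_cons, k1 b3, sF]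
        push_cast; ring
      · simp only [b3, if_false, List.map_nil, List.sum_nil]; ring
  have h4 : f27 (v + t • (BF F r *ᵥ v)) - f27 v = t * ((triL.flatMap (linL r)).map
      fun p : ℤ × ℕ => (p.1 : F) * VV v p.2).sum := by
    rw [← sum_flatMap triL (linL r) (fun p : ℤ × ℕ => (p.1 : F) * VV v p.2)
      (fun τ => ((linL r τ).map fun p : ℤ × ℕ => (p.1 : F) * VV v p.2).sum) (fun _ _ => rfl), ← List.sum_map_mul_left]
    unfold f27
    rw [sub_eq_iff_eq_add, ← List.sum_map_add]
    congr 1
    apply List.map_congr_left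
    intro τ hτ
    rw [← key τ hτ]; ring
  rw [hc, mul_zero] at h4
  exact sub_eq_zero.1 h4

lemma X_mem_G {r : ℕ} (hr : r < 72) (t : F) : X r t ∈ E6univ F := by
  intro v
  show cubicT (((X r t : GL I27 F) : Matrix I27 I27 F) *ᵥ v) = cubicT v
  rw [X_vec, cubicT_eq, cubicT_eq, f27_X hr]

lemma E_le : E F ≤ E6univ F := by
  apply (Subgroup.closure_le _).2
  rintro g ⟨r, hr, t, rfl⟩
  exact X_mem_G hr t

end Cfsg.Agent.CubE6
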