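import Cfsg.Agent.CubE6.Tor
import Cfsg.Agent.Chev.Gen
/-!
The adjoint action of the group generated by the root elements, and the isomorphism with the Chevalley group.
-/
set_option autoImplicit false

namespace Cfsg.Agent.CubE6

open Cfsg.Lie Cfsg.Agent.Chev Matrix

variable {F : Type*} [Field F]

/-- the representation of the Lie algebra on the 27-dimensional space -/
def Phi (F : Type*) [Field F] : (chevE6.Idx → F) →ₗ[F] Matrix I27 I27 F where
  toFun v := ∑ i : Fin chevE6.rank, v (Sum.inl i) • HF F i.val + ∑ s : Fin chevE6.nroots, v (Sum.inr s) • BF F s.val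
  map_add' u v := by
    simp only [Pi.add_apply, add_smul, Finset.sum_add_distrib]; abel
  map_smul' c v := by
    simp only [Pi.smul_apply, smul_eq_mul, mul_smul, ← Finset.smul_sum, smul_add, RingHom.id_apply]

lemma Phi_apply (v : chevE6.Idx → F) : Phi F v =
    ∑ i : Fin chevE6.rank, v (Sum.inl i) • HF F i.val + ∑ s : Fin chevE6.nroots, v (Sum.inr s) • BF F s.val := rfl

lemma Phi_hB {i : ℕ} (hi : i < chevE6.rank) : Phi F (hB chevE6 F i) = HF F i := by
  rw [Phi_apply]
  simp only [hB_apply_inl, hB_apply_inr, zero_smul, Finset.sum_const_zero, add_zero]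
  rw [Finset.sum_eq_single (⟨i, hi⟩ : Fin chevE6.rank)]
  · simp
  · intro b _ hb
    have : b.val ≠ i := fun h => hb (Fin.ext h)
    simp [this]
  · simp

lemma Phi_eB {s : ℕ} (hs : s < chevE6.nroots) : Phi F (eB chevE6 F s) = BF F s := by
  rw [Phi_apply]
  simp only [eB_apply_inl, eB_apply_inr, zero_smul, Finset.sum_const_zero, zero_add]
  rw [Finset.sum_eq_single (⟨s, hs⟩ : Fin chevE6.nroots)]
  · simp
  · intro b _ hb
    have : b.val ≠ s := fun h => hb (Fin.ext h)
    simp [this]
  · simp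

lemma Phi_hR (r : ℕ) : Phi F (hR chevE6 F r) = ∑ i : Fin 6, ((cc chevE6 r i.val : ℤ) : F) • HF F i.val := by
  rw [Phi_apply]
  simp only [hR_apply_inl, hR_apply_inr, zero_smul, Finset.sum_const_zero, add_zero]
  rfl

lemma mm_e (A B : Matrix I27 I27 F) (n : ℕ) : (A * B) *ᵥ e F n = A *ᵥ (B *ᵥ e F n) := by
  rw [Matrix.mulVec_mulVec]

lemma BB_e (r s n : ℕ) : (BF F r * BF F s) *ᵥ e F n = (sF F s n * sF F r (img s n)) • e F (img r (img s n)) := by
  rw [mm_e, BF_e, Matrix.mulVec_smul, BF_e, smul_smul]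

lemma chkB_all {r s : ℕ} (hr : r < 72) (hs : s < 72) (h1 : s ≠ r) (h2 : s ≠ 71 - r) : chkB1 r s = true := by
  have key : ∀ a b, chkB a b = true → a ≤ r → r < a + b → chkB1 r s = true := by
    intro a b hab h3 h4
    have := allN_iff.1 (allN_iff.1 hab (r - a) (by omega)) s hs
    rw [show a + (r - a) = r by omega] at this
    simp only [Bool.or_eq_true, nbeq] at this
    rcases this with h | h | h
    · exact absurd h h1
    · exact absurd h h2
    · exact h
  by_cases h18 : r < 18
  · exact key 0 18 chkB_0 (by omega) (by omega)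
  · by_cases h36 : r < 36
    · exact key 18 18 chkB_1 (by omega) (by omega)
    · by_cases h54 : r < 54
      · exact key 36 18 chkB_2 (by omega) (by omega)
      · exact key 54 18 chkB_3 (by omega) (by omega)

lemma BBB {r s : ℕ} (hr : r < 72) (hs : s < 72) (h1 : s ≠ r) (h2 : s ≠ 71 - r) : BF F r * BF F s * BF F r = 0 := by
  have h3 := chkB_all hr hs h1 h2
  unfold chkB1 at h3
  rw [Bool.and_eq_true] at h3
  apply mat_ext
  intro n hn
  have h4 := allN_iff.1 h3.1 n hn
  rw [nbeq] at h4
  rw [mm_e, BF_e, Matrix.mulVec_smul, BB_e, h4, e_big le_rfl]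
  simp

lemma BB_comm {r s : ℕ} (hr : r < 72) (hs : s < 72) (h1 : s ≠ r) (h2 : s ≠ 71 - r)
    (h0 : chevE6.chainEntry r s = []) : BF F r * BF F s = BF F s * BF F r := by
  have h3 := chkB_all hr hs h1 h2
  unfold chkB1 at h3
  rw [Bool.and_eq_true, h0] at h3
  apply mat_ext
  intro n hn
  have h4 := allN_iff.1 h3.2 n hn
  simp only [Bool.or_eq_true, Bool.and_eq_true, nbeq, decide_eq_true_eq] at h4
  rw [BB_e, BB_e]
  rcases h4 with ⟨h5, h6⟩ | ⟨h5, h6⟩
  · rw [h5, h6, e_big le_rfl]; simp
  · rw [h5]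
    congr 1
    unfold sF
    exact_mod_cast congrArg (fun z : ℤ => (z : F)) h6

lemma BB_brk {r s : ℕ} (hr : r < 72) (hs : s < 72) (h1 : s ≠ r) (h2 : s ≠ 71 - r) {q : ℕ × ℤ}
    (h0 : chevE6.chainEntry r s = [q]) : BF F r * BF F s - BF F s * BF F r = (q.2 : F) • BF F q.1 := by
  have h3 := chkB_all hr hs h1 h2
  unfold chkB1 at h3
  rw [Bool.and_eq_true, h0] at h3
  apply mat_ext
  intro n hn
  have h4 := allN_iff.1 h3.2 n hn
  simp only [Bool.or_eq_true, Bool.and_eq_true, nbeq, decide_eq_true_eq] at h4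
  rw [Matrix.sub_mulVec, BB_e, BB_e, Matrix.smul_mulVec, BF_e, smul_smul]
  rcases h4 with ⟨h5, h6, h7⟩ | ⟨h5, h6, h7⟩ | ⟨h5, h6, h7⟩
  · rw [h5, h6, h7, e_big le_rfl]; simp
  · rw [h5, h6, e_big le_rfl, smul_zero, zero_sub, ← neg_smul]
    congr 1
    unfold sF
    have := congrArg (fun z : ℤ => (z : F)) h7
    push_cast at this
    linear_combination -this
  · rw [h5, h6, e_big le_rfl, smul_zero, sub_zero]
    congr 1
    unfold sF
    have := congrArg (fun z : ℤ => (z : F)) h7
    push_cast at this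
    linear_combination this

lemma chain_cases {r s : ℕ} (hr : r < 72) (hs : s < 72) (h1 : s ≠ r) (h2 : s ≠ 71 - r) :
    chevE6.chainEntry r s = [] ∨ ∃ q, chevE6.chainEntry r s = [q] := by
  have h3 := chkB_all hr hs h1 h2
  unfold chkB1 at h3
  rw [Bool.and_eq_true] at h3
  rcases hc : chevE6.chainEntry r s with _ | ⟨q, _ | ⟨q', l⟩⟩
  · exact Or.inl rfl
  · exact Or.inr ⟨q, rfl⟩
  · rw [hc] at h3; simp at h3

lemma BnB (r : ℕ) (hr : r < 72) : BF F r * BF F (71 - r) * BF F r = BF F r := by
  apply mat_ext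
  intro n hn
  rw [mm_e, BF_e, Matrix.mulVec_smul, BB_e]
  rcases img_lt_or (r := r) (n := n) with h | h
  · obtain ⟨a, b⟩ := img_sym h
    rw [a]
    have : sF F (71 - r) (img r n) = sF F r n := by unfold sF; rw [b]
    rw [this, sF_sq, one_smul]
  · rw [h, img_27, img_27, e_big le_rfl]; simp

lemma HR_eq {r : ℕ} (hr : r < 72) : BF F r * BF F (71 - r) - BF F (71 - r) * BF F r =
    ∑ i : Fin 6, ((cc chevE6 r i.val : ℤ) : F) • HF F i.val := by
  apply mat_ext
  intro n hn
  have h0 := allN_iff.1 (allN_iff.1 chkHR_ok r hr) n hn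
  rw [decide_eq_true_eq] at h0
  have h1 : (∑ i : Fin 6, ((cc chevE6 r i.val : ℤ) : F) • HF F i.val) *ᵥ e F n =
      (((if img (71 - r) n = 27 then 0 else 1) - (if img r n = 27 then 0 else 1) : ℤ) : F) • e F n := by
    rw [← h0]
    simp only [Matrix.sum_mulVec, Matrix.smul_mulVec, HF_e, smul_smul, ← Finset.sum_smul]
    congr 1
    rw [Fin.sum_univ_six]
    push_cast
    rfl
  rw [h1, Matrix.sub_mulVec, BB_e, BB_e]
  have p1 : (sF F (71 - r) n * sF F r (img (71 - r) n)) • e F (img r (img (71 - r) n)) =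
      (((if img (71 - r) n = 27 then 0 else 1 : ℤ)) : F) • e F n := by
    rcases img_lt_or (r := 71 - r) (n := n) with h | h
    · obtain ⟨a, b⟩ := img_sym h
      rw [show 71 - (71 - r) = r by omega] at a b
      rw [a, if_neg (by omega)]
      have : sF F r (img (71 - r) n) = sF F (71 - r) n := by unfold sF; rw [b]
      rw [this, sF_sq]; simp
    · rw [h, img_27, e_big le_rfl]; simp
  have p2 : (sF F r n * sF F (71 - r) (img r n)) • e F (img (71 - r) (img r n)) =
      (((if img r n = 27 then 0 else 1 : ℤ)) : F) • e F n := by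
    rcases img_lt_or (r := r) (n := n) with h | h
    · obtain ⟨a, b⟩ := img_sym h
      rw [a, if_neg (by omega)]
      have : sF F (71 - r) (img r n) = sF F r n := by unfold sF; rw [b]
      rw [this, sF_sq]; simp
    · rw [h, img_27, e_big le_rfl]; simp
  rw [p1, p2, ← sub_smul]
  push_cast
  rfl

lemma HB {i r : ℕ} (hi : i < 6) (hr : r < 72) :
    HF F i * BF F r = BF F r * HF F i + ((chevE6.cartan i r : ℤ) : F) • BF F r := by
  apply mat_ext
  intro n hn
  have h0 := allN_iff.1 (allN_iff.1 (allN_iff.1 chkH_ok i hi) r hr) n hn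
  simp only [Bool.or_eq_true, nbeq, decide_eq_true_eq] at h0
  rw [Matrix.add_mulVec, mm_e, mm_e, Matrix.smul_mulVec, BF_e, HF_e, Matrix.mulVec_smul, Matrix.mulVec_smul, HF_e,
    BF_e]
  rcases h0 with h | h
  · rw [h, e_big le_rfl]; simp
  · rw [← h]
    push_cast
    module

/-- conjugation by a root element on the image of the Lie algebra -/
lemma conj_x {r : ℕ} (hr : r < 72) (t : F) (v : chevE6.Idx → F) :
    ((X r t : GL I27 F) : Matrix I27 I27 F) * Phi F v =
      Phi F (chevE6.x F r t *ᵥ v) * ((X r t : GL I27 F) : Matrix I27 I27 F) := by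
  have hn : chevE6.neg r = 71 - r := by
    have := allN_iff.1 chkNeg_ok r hr
    rwa [nbeq] at this
  let L1 : (chevE6.Idx → F) →ₗ[F] Matrix I27 I27 F :=
    (LinearMap.mulLeft F ((X r t : GL I27 F) : Matrix I27 I27 F)).comp (Phi F)
  let L2 : (chevE6.Idx → F) →ₗ[F] Matrix I27 I27 F :=
    (LinearMap.mulRight F ((X r t : GL I27 F) : Matrix I27 I27 F)).comp ((Phi F).comp (chevE6.x F r t).mulVecLin)
  suffices h : L1 = L2 from congrArg (fun L : (chevE6.Idx → F) →ₗ[F] Matrix I27 I27 F => L v) h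
  apply (Pi.basisFun F chevE6.Idx).ext
  intro j
  show ((X r t : GL I27 F) : Matrix I27 I27 F) * Phi F (Pi.basisFun F chevE6.Idx j) =
    Phi F (chevE6.x F r t *ᵥ (Pi.basisFun F chevE6.Idx j)) * ((X r t : GL I27 F) : Matrix I27 I27 F)
  rw [Pi.basisFun_apply, X_val]
  have hsq := BF_sq (F := F) r
  rcases j with i | s
  · have h1 : (Pi.single (Sum.inl i) 1 : chevE6.Idx → F) = hB chevE6 F i.val := by
      rw [hB_of_lt i.2]
    rw [h1, x_mulVec_hB hr i.2, map_sub, map_smul, Phi_hB i.2, Phi_eB hr]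
    have h2 := HB (F := F) (i := i.val) (r := r) i.2 hr
    simp only [add_mul, one_mul, sub_mul, mul_add, mul_one, Matrix.smul_mul, Matrix.mul_smul, hsq, h2]
    module
  · have h1 : (Pi.single (Sum.inr s) 1 : chevE6.Idx → F) = eB chevE6 F s.val := by
      rw [eB_of_lt s.2]
    have hs : s.val < 72 := s.2
    rw [h1]
    by_cases h3 : s.val = r
    · rw [h3, x_mulVec_eB_self hr, Phi_eB hr]
      simp only [add_mul, one_mul, mul_add, mul_one, Matrix.smul_mul, Matrix.mul_smul]
    · by_cases h4 : s.val = 71 - r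
      · rw [h4, ← hn, x_mulVec_eB_neg hr (by rw [hn]; show 71 - r < 72; omega) (by rw [hn]; omega), map_sub, map_add,
          map_smul, map_smul, Phi_hR, ← HR_eq hr, Phi_eB hr, hn, Phi_eB (show 71 - r < 72 by omega)]
        have h5 := BnB (F := F) r hr
        have h6 : BF F (71 - r) * BF F r * BF F r = 0 := by rw [mul_assoc, hsq, mul_zero]
        simp only [add_mul, one_mul, sub_mul, mul_add, mul_one, mul_sub, Matrix.smul_mul, Matrix.mul_smul, hsq, h5, h6]
        module
      · rw [x_mulVec_eB good1_E6.rows hr s.2 h3 (by rw [hn]; exact h4), map_add]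
        rcases chain_cases hr hs h3 h4 with h5 | ⟨q, h5⟩
        · rw [h5, Phi_eB s.2]
          have h6 := BB_comm (F := F) hr hs h3 h4 h5
          simp only [add_mul, one_mul, mul_add, mul_one, Matrix.smul_mul, Matrix.mul_smul, h6, List.zipIdx_nil,
            List.map_nil, List.sum_nil, map_zero, zero_mul, add_zero]
        · have hq : q.1 < 72 := (good1_E6.item r s.val q (by rw [h5]; simp)).1
          rw [h5, Phi_eB s.2]
          have h6 := BB_brk (F := F) hr hs h3 h4 h5
          have h7 := BBB (F := F) hr hs h3 h4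
          have h8 : (q.2 : F) • (BF F q.1 * BF F r) = 0 := by
            rw [← Matrix.smul_mul, ← h6, sub_mul, h7, mul_assoc, hsq, mul_zero, sub_zero]
          have h9 : BF F r * BF F s.val = BF F s.val * BF F r + (q.2 : F) • BF F q.1 := by
            rw [← h6]; abel
          have h10 : (List.map (fun q : (ℕ × ℤ) × ℕ => (((q.1.2 : ℤ) : F) * t ^ (q.2 + 1)) • eB chevE6 F q.1.1)
              ([q].zipIdx)).sum = ((q.2 : F) * t) • eB chevE6 F q.1 := by
            simp
          rw [h10, map_smul, Phi_eB hq]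
          simp only [add_mul, one_mul, mul_add, mul_one, Matrix.smul_mul, Matrix.mul_smul, h9]
          have h11 : ((q.2 : F) * t) • t • (BF F q.1 * BF F r) = 0 := by
            have h12 : ((q.2 : F) * t) • t • (BF F q.1 * BF F r) = (t * t) • ((q.2 : F) • (BF F q.1 * BF F r)) := by
              module
            rw [h12, h8, smul_zero]
          rw [smul_comm t (((q.2 : F)) * t), h11]
          module

end Cfsg.Agent.CubE6
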