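import Cfsg.Agent.CubE6.Iso
/-!
The isometry group of the cubic form modulo its centre is the Chevalley group of type E6.
-/
set_option autoImplicit false

namespace Cfsg.Agent.CubE6

open Cfsg.Lie Cfsg.Agent.Chev Matrix

variable {F : Type*} [Field F]

def chkE : Bool := allN 72 fun s => (List.range 27).any fun y => Nat.blt (img s y) 27

theorem chkE_ok : chkE = true := by decide +kernel

lemma Phi_coord (v : chevE6.Idx → F) (x y : I27) : Phi F v x y =
    ∑ i : Fin chevE6.rank, v (Sum.inl i) * HF F i.val x y + ∑ s : Fin chevE6.nroots, v (Sum.inr s) * BF F s.val x y := by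
  rw [Phi_apply, Matrix.add_apply, Matrix.sum_apply, Matrix.sum_apply]
  simp only [Matrix.smul_apply, smul_eq_mul]

lemma img_ne {s y : ℕ} (h : y < 27) : img s y ≠ y := by
  intro h1
  have := img_img (r := s) (y := y)
  rw [h1, h1] at this
  omega

lemma Phi_inj {v : chevE6.Idx → F} (h : Phi F v = 0) : v = 0 := by
  have hr : ∀ s : Fin chevE6.nroots, v (Sum.inr s) = 0 := by
    intro s
    have hs : s.val < 72 := s.2
    have h1 := allN_iff.1 chkE_ok s.val hs
    simp only [List.any_eq_true, List.mem_range, blt_iff] at h1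
    obtain ⟨y, hy, h2⟩ := h1
    have h3 := congrFun (congrFun h (dec (img s.val y))) (dec y)
    rw [Phi_coord, Finset.sum_eq_zero, zero_add, Finset.sum_eq_single s] at h3
    · simp only [BF, Matrix.of_apply, code_dec hy, code_dec h2, if_true, Matrix.zero_apply] at h3
      exact (mul_eq_zero.1 h3).resolve_right (sF_ne _ _)
    · intro b _ hb
      rw [BF, Matrix.of_apply, code_dec hy, code_dec h2, if_neg, mul_zero]
      intro h4
      apply hb
      have hk := chkR1_ok
      unfold chkR1 at hk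
      rw [Bool.and_eq_true] at hk
      have k1 := allN_iff.1 (allN_iff.1 hk.1 s.val hs) y hy
      have k2 := allN_iff.1 (allN_iff.1 hk.1 b.val b.2) y hy
      simp only [Bool.or_eq_true, nbeq] at k1 k2
      rw [h4] at k2
      have k1' : rt y (img s.val y) = s.val := by rcases k1 with k | k <;> omega
      have k2' : rt y (img s.val y) = b.val := by rcases k2 with k | k <;> omega
      exact Fin.ext (k2'.symm.trans k1')
    · simp
    · intro i _
      rw [HF, Matrix.diagonal_apply_ne, mul_zero]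
      intro h4
      exact img_ne hy (dec_inj h2 hy h4)
  have hd : ∀ n < 27, ∑ i : Fin 6, v (Sum.inl i) * ((hv i.val n : ℤ) : F) = 0 := by
    intro n hn
    have h3 := congrFun (congrFun h (dec n)) (dec n)
    rw [Phi_coord] at h3
    simp only [hr, zero_mul, Finset.sum_const_zero, add_zero, HF, Matrix.diagonal_apply_eq, code_dec hn,
      Matrix.zero_apply] at h3
    exact h3
  have d0 := hd 0 (by norm_num)
  have d1 := hd 1 (by norm_num)
  have d2 := hd 2 (by norm_num)
  have d3 := hd 3 (by norm_num)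
  have d21 := hd 21 (by norm_num)
  have d24 := hd 24 (by norm_num)
  simp only [Fin.sum_univ_six] at d0 d1 d2 d3 d21 d24
  simp only [show hv (0 : Fin 6).val 0 = 1 by decide +kernel, show hv (1 : Fin 6).val 0 = 0 by decide +kernel,
    show hv (2 : Fin 6).val 0 = 0 by decide +kernel, show hv (3 : Fin 6).val 0 = 0 by decide +kernel,
    show hv (4 : Fin 6).val 0 = 0 by decide +kernel, show hv (5 : Fin 6).val 0 = 0 by decide +kernel] at d0
  simp only [show hv (0 : Fin 6).val 1 = -1 by decide +kernel, show hv (1 : Fin 6).val 1 = 0 by decide +kernel,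
    show hv (2 : Fin 6).val 1 = 1 by decide +kernel, show hv (3 : Fin 6).val 1 = 0 by decide +kernel,
    show hv (4 : Fin 6).val 1 = 0 by decide +kernel, show hv (5 : Fin 6).val 1 = 0 by decide +kernel] at d1
  simp only [show hv (0 : Fin 6).val 2 = 0 by decide +kernel, show hv (1 : Fin 6).val 2 = 0 by decide +kernel,
    show hv (2 : Fin 6).val 2 = -1 by decide +kernel, show hv (3 : Fin 6).val 2 = 1 by decide +kernel,
    show hv (4 : Fin 6).val 2 = 0 by decide +kernel, show hv (5 : Fin 6).val 2 = 0 by decide +kernel] at d2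
  simp only [show hv (0 : Fin 6).val 3 = 1 by decide +kernel, show hv (1 : Fin 6).val 3 = -1 by decide +kernel,
    show hv (2 : Fin 6).val 3 = 0 by decide +kernel, show hv (3 : Fin 6).val 3 = 0 by decide +kernel,
    show hv (4 : Fin 6).val 3 = 0 by decide +kernel, show hv (5 : Fin 6).val 3 = 0 by decide +kernel] at d3
  simp only [show hv (0 : Fin 6).val 21 = 0 by decide +kernel, show hv (1 : Fin 6).val 21 = 0 by decide +kernel,
    show hv (2 : Fin 6).val 21 = 0 by decide +kernel, show hv (3 : Fin 6).val 21 = 0 by decide +kernel,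
    show hv (4 : Fin 6).val 21 = -1 by decide +kernel, show hv (5 : Fin 6).val 21 = 1 by decide +kernel] at d21
  simp only [show hv (0 : Fin 6).val 24 = 0 by decide +kernel, show hv (1 : Fin 6).val 24 = 0 by decide +kernel,
    show hv (2 : Fin 6).val 24 = 0 by decide +kernel, show hv (3 : Fin 6).val 24 = 0 by decide +kernel,
    show hv (4 : Fin 6).val 24 = 0 by decide +kernel, show hv (5 : Fin 6).val 24 = -1 by decide +kernel] at d24
  push_cast at d0 d1 d2 d3 d21 d24
  ext j
  rcases j with i | s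
  · have hi : ∀ i : Fin 6, v (Sum.inl i) = 0 := by
      intro i
      fin_cases i
      · show v (Sum.inl (0 : Fin 6)) = 0
        linear_combination d0
      · show v (Sum.inl (1 : Fin 6)) = 0
        linear_combination d0 - d3
      · show v (Sum.inl (2 : Fin 6)) = 0
        linear_combination d0 + d1
      · show v (Sum.inl (3 : Fin 6)) = 0
        linear_combination d0 + d1 + d2
      · show v (Sum.inl (4 : Fin 6)) = 0
        linear_combination -d21 - d24
      · show v (Sum.inl (5 : Fin 6)) = 0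
        linear_combination -d24
    exact hi i
  · exact hr s

/-- the relation between the two groups -/
def RR (g : GL I27 F) (m : GL chevE6.Idx F) : Prop :=
  ∀ v, (g : Matrix I27 I27 F) * Phi F v = Phi F ((m : Matrix chevE6.Idx chevE6.Idx F) *ᵥ v) * (g : Matrix I27 I27 F)

lemma RR_one : RR (1 : GL I27 F) 1 := by
  intro v; simp

lemma RR_mul {g g' : GL I27 F} {m m' : GL chevE6.Idx F} (h : RR g m) (h' : RR g' m') : RR (g * g') (m * m') := by
  intro v
  rw [Units.val_mul, Units.val_mul, mul_assoc, h' v, ← mul_assoc, h, mul_assoc, Matrix.mulVec_mulVec]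

lemma RR_inv {g : GL I27 F} {m : GL chevE6.Idx F} (h : RR g m) : RR g⁻¹ m⁻¹ := by
  intro v
  have h1 := h (((m⁻¹ : GL chevE6.Idx F) : Matrix chevE6.Idx chevE6.Idx F) *ᵥ v)
  rw [Matrix.mulVec_mulVec, ← Units.val_mul, mul_inv_cancel, Units.val_one, Matrix.one_mulVec] at h1
  have h2 : ((g⁻¹ : GL I27 F) : Matrix I27 I27 F) * (g : Matrix I27 I27 F) = 1 := by
    rw [← Units.val_mul, inv_mul_cancel, Units.val_one]
  have h3 : (g : Matrix I27 I27 F) * ((g⁻¹ : GL I27 F) : Matrix I27 I27 F) = 1 := by
    rw [← Units.val_mul, mul_inv_cancel, Units.val_one]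
  calc ((g⁻¹ : GL I27 F) : Matrix I27 I27 F) * Phi F v
      = ((g⁻¹ : GL I27 F) : Matrix I27 I27 F) * (Phi F v * (g : Matrix I27 I27 F)) *
          ((g⁻¹ : GL I27 F) : Matrix I27 I27 F) := by
        rw [mul_assoc, mul_assoc, h3, mul_one]
    _ = _ := by
        rw [← h1, ← mul_assoc, h2, one_mul]

lemma RR_unique {g : GL I27 F} {m m' : GL chevE6.Idx F} (h : RR g m) (h' : RR g m') : m = m' := by
  apply Units.ext
  have key : ∀ v, (m : Matrix chevE6.Idx chevE6.Idx F) *ᵥ v = (m' : Matrix chevE6.Idx chevE6.Idx F) *ᵥ v := by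
    intro v
    have h1 : Phi F ((m : Matrix chevE6.Idx chevE6.Idx F) *ᵥ v) * (g : Matrix I27 I27 F) =
        Phi F ((m' : Matrix chevE6.Idx chevE6.Idx F) *ᵥ v) * (g : Matrix I27 I27 F) := (h v).symm.trans (h' v)
    have h3 : (g : Matrix I27 I27 F) * ((g⁻¹ : GL I27 F) : Matrix I27 I27 F) = 1 := by
      rw [← Units.val_mul, mul_inv_cancel, Units.val_one]
    have h4 := congrArg (fun M => M * ((g⁻¹ : GL I27 F) : Matrix I27 I27 F)) h1
    simp only [mul_assoc, h3, mul_one] at h4
    have h5 := Phi_inj (F := F) (v := (m : Matrix chevE6.Idx chevE6.Idx F) *ᵥ v -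
      (m' : Matrix chevE6.Idx chevE6.Idx F) *ᵥ v) (by rw [map_sub, h4, sub_self])
    exact sub_eq_zero.1 h5
  apply Matrix.toLin'.injective
  apply LinearMap.ext
  intro v
  rw [Matrix.toLin'_apply, Matrix.toLin'_apply, key]

lemma RR_X {r : ℕ} (hr : r < 72) (t : F) : RR (X r t) (xU good2_E6 r t) := conj_x hr t

lemma exists_R {g : GL I27 F} (hg : g ∈ E F) : ∃ m ∈ chevE6.group F, RR g m := by
  induction hg using Subgroup.closure_induction with
  | mem g h =>
    obtain ⟨r, hr, t, rfl⟩ := h
    exact ⟨xU good2_E6 r t, mem_group_of_x rfl, RR_X hr t⟩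
  | one => exact ⟨1, one_mem _, RR_one⟩
  | mul g g' _ _ h h' =>
    obtain ⟨m, hm, h⟩ := h
    obtain ⟨m', hm', h'⟩ := h'
    exact ⟨m * m', mul_mem hm hm', RR_mul h h'⟩
  | inv g _ h =>
    obtain ⟨m, hm, h⟩ := h
    exact ⟨m⁻¹, inv_mem hm, RR_inv h⟩

lemma exists_L {m : GL chevE6.Idx F} (hm : m ∈ chevE6.group F) : ∃ g ∈ E F, RR g m := by
  let K : Subgroup (GL chevE6.Idx F) :=
    { carrier := {m | ∃ g ∈ E F, RR g m}
      mul_mem' := by
        rintro m m' ⟨g, hg, h⟩ ⟨g', hg', h'⟩
        exact ⟨g * g', mul_mem hg hg', RR_mul h h'⟩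
      one_mem' := ⟨1, one_mem _, RR_one⟩
      inv_mem' := by
        rintro m ⟨g, hg, h⟩
        exact ⟨g⁻¹, inv_mem hg, RR_inv h⟩ }
  have : chevE6.group F ≤ K := by
    apply group_le_of_x
    intro g r t hr hg
    refine ⟨X r t, X_mem hr t, ?_⟩
    have : g = xU good2_E6 r t := Units.ext hg
    rw [this]
    exact RR_X hr t
  exact this hm

lemma RR_one_iff {g : GL I27 F} (hg : g ∈ E F) : RR g 1 ↔ ∀ h ∈ E F, h * g = g * h := by
  constructor
  · intro h k hk
    induction hk using Subgroup.closure_induction with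
    | mem k h' =>
      obtain ⟨r, hr, t, rfl⟩ := h'
      have h1 := h (eB chevE6 F r)
      rw [Units.val_one, Matrix.one_mulVec, Phi_eB hr] at h1
      apply Units.ext
      rw [Units.val_mul, Units.val_mul, X_val, add_mul, mul_add, one_mul, mul_one, Matrix.smul_mul, Matrix.mul_smul, h1]
    | one => simp
    | mul a b _ _ ha hb => rw [mul_assoc, hb, ← mul_assoc, ha, mul_assoc]
    | inv a _ ha => rw [inv_mul_eq_iff_eq_mul, ← mul_assoc, ha, mul_assoc, mul_inv_cancel, mul_one]
  · intro h
    have hB : ∀ r < 72, (g : Matrix I27 I27 F) * BF F r = BF F r * (g : Matrix I27 I27 F) := by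
      intro r hr
      have h1 := congrArg (fun x : GL I27 F => (x : Matrix I27 I27 F)) (h _ (X_mem (F := F) hr 1))
      simp only [Units.val_mul, X_val, add_mul, mul_add, one_mul, mul_one, one_smul] at h1
      exact (add_left_cancel h1).symm
    intro v
    rw [Units.val_one, Matrix.one_mulVec]
    -- coroots are brackets
    have hH : ∀ i : Fin chevE6.rank, (g : Matrix I27 I27 F) * HF F i.val = HF F i.val * (g : Matrix I27 I27 F) := by
      intro i
      have hsr : chevE6.simple i.val < 72 := good1_E6.simple_lt i.val i.2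
      have h6 := HR_eq (F := F) hsr
      have h7 : (∑ j : Fin 6, ((cc chevE6 (chevE6.simple i.val) j.val : ℤ) : F) • HF F j.val) = HF F i.val := by
        have hs := Finset.sum_eq_single (s := (Finset.univ : Finset (Fin 6))) (⟨i.val, i.2⟩ : Fin 6)
          (f := fun j : Fin 6 => ((cc chevE6 (chevE6.simple i.val) j.val : ℤ) : F) • HF F j.val)
          (by
            intro b _ hb
            have hb' : i.val ≠ b.val := fun h => hb (Fin.ext h).symm
            rw [good1_E6.cc_simple i.val i.2 b.val b.2, if_neg hb']; simp)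
          (fun h => absurd (Finset.mem_univ _) h)
        rw [hs, good1_E6.cc_simple i.val i.2 i.val i.2]; simp
      rw [← h7, ← h6, mul_sub, sub_mul, ← mul_assoc, ← mul_assoc, hB _ hsr, hB _ (by omega), mul_assoc, mul_assoc,
        mul_assoc, mul_assoc, hB _ hsr, hB _ (show 71 - chevE6.simple i.val < 72 by omega)]
    rw [Phi_apply, mul_add, add_mul, Finset.mul_sum, Finset.mul_sum, Finset.sum_mul, Finset.sum_mul]
    congr 1
    · apply Finset.sum_congr rfl
      intro i _
      rw [Matrix.mul_smul, Matrix.smul_mul, hH]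
    · apply Finset.sum_congr rfl
      intro s _
      rw [Matrix.mul_smul, Matrix.smul_mul, hB _ s.2]

/-- the adjoint homomorphism -/
noncomputable def ad (h2 : ∃ c : F, c ≠ 0 ∧ c ≠ 1) : ↥(E6univ F) →* ↥(chevE6.group F) where
  toFun g := ⟨(exists_R (G_le_E h2 g.2)).choose, (exists_R (G_le_E h2 g.2)).choose_spec.1⟩
  map_one' := by
    apply Subtype.ext
    exact RR_unique (exists_R (G_le_E h2 (1 : ↥(E6univ F)).2)).choose_spec.2 RR_one
  map_mul' g g' := by
    apply Subtype.ext
    exact RR_unique (exists_R (G_le_E h2 (g * g').2)).choose_spec.2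
      (RR_mul (exists_R (G_le_E h2 g.2)).choose_spec.2 (exists_R (G_le_E h2 g'.2)).choose_spec.2)

lemma ad_spec (h2 : ∃ c : F, c ≠ 0 ∧ c ≠ 1) (g : ↥(E6univ F)) : RR (g : GL I27 F) (ad h2 g : GL chevE6.Idx F) :=
  (exists_R (G_le_E h2 g.2)).choose_spec.2

lemma ad_surj (h2 : ∃ c : F, c ≠ 0 ∧ c ≠ 1) : Function.Surjective (ad h2) := by
  intro m
  obtain ⟨g, hg, h⟩ := exists_L m.2
  refine ⟨⟨g, E_le hg⟩, ?_⟩
  apply Subtype.ext
  exact RR_unique (ad_spec h2 ⟨g, E_le hg⟩) h

lemma ad_ker (h2 : ∃ c : F, c ≠ 0 ∧ c ≠ 1) : (ad h2).ker = Subgroup.center (E6univ F) := by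
  ext g
  rw [MonoidHom.mem_ker, Subgroup.mem_center_iff]
  have hgE : (g : GL I27 F) ∈ E F := G_le_E h2 g.2
  constructor
  · intro h k
    have h1 := ad_spec h2 g
    rw [h] at h1
    apply Subtype.ext
    exact (RR_one_iff hgE).1 h1 k (G_le_E h2 k.2)
  · intro h
    apply Subtype.ext
    refine RR_unique (ad_spec h2 g) ((RR_one_iff hgE).2 ?_)
    intro k hk
    exact congrArg Subtype.val (h ⟨k, E_le hk⟩)

theorem main (h2 : ∃ c : F, c ≠ 0 ∧ c ≠ 1) : Nonempty (E6 F ≃* ↥(chevE6.group F)) :=
  ⟨(QuotientGroup.quotientMulEquivOfEq (ad_ker h2).symm).trans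
    (QuotientGroup.quotientKerEquivOfSurjective (ad h2) (ad_surj h2))⟩

end Cfsg.Agent.CubE6
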