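import Cfsg.Agent.CubE6.Form
/-!
Reduction of an isometry of the cubic form to diagonal form by root elements.
-/
set_option autoImplicit false

namespace Cfsg.Agent.CubE6

open Cfsg.Lie Cfsg.Agent.Chev Matrix

variable {F : Type*} [Field F]

def av (g : GL I27 F) (v : I27 → F) : I27 → F := (g : Matrix I27 I27 F) *ᵥ v

lemma av_mul (g h : GL I27 F) (v : I27 → F) : av (g * h) v = av g (av h v) := by
  unfold av; rw [Matrix.mulVec_mulVec]; rfl

lemma av_one (v : I27 → F) : av (1 : GL I27 F) v = v := by
  unfold av; simp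

lemma av_inv (g : GL I27 F) (v : I27 → F) : av g (av g⁻¹ v) = v := by
  rw [← av_mul, mul_inv_cancel, av_one]

lemma av_add (g : GL I27 F) (u v : I27 → F) : av g (u + v) = av g u + av g v := Matrix.mulVec_add _ _ _

lemma av_smul (g : GL I27 F) (c : F) (v : I27 → F) : av g (c • v) = c • av g v := Matrix.mulVec_smul _ _ _

lemma av_zero (g : GL I27 F) : av g 0 = 0 := Matrix.mulVec_zero _

lemma av_eq_zero {g : GL I27 F} {v : I27 → F} (h : av g v = 0) : v = 0 := by
  have := congrArg (av g⁻¹) h
  rwa [← av_mul, inv_mul_cancel, av_one, av_zero] at this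

lemma e_ne {n : ℕ} (h : n < 27) : e F n ≠ 0 := by
  intro h0
  have := congrFun h0 (dec n)
  rw [e_dec h] at this
  simp at this

lemma mem_G {g : GL I27 F} (hg : g ∈ E6univ F) (v : I27 → F) : f27 (av g v) = f27 v := by
  rw [← cubicT_eq, ← cubicT_eq]; exact hg v

lemma inv_DD (h2 : ∃ c : F, c ≠ 0 ∧ c ≠ 1) {g : GL I27 F} (hg : g ∈ E6univ F) (u v : I27 → F) :
    DD (av g u) (av g v) = DD u v := by
  obtain ⟨c, hc0, hc1⟩ := h2
  have key : ∀ c : F, c * DD (av g u) (av g v) + c ^ 2 * DD (av g v) (av g u) = c * DD u v + c ^ 2 * DD v u := by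
    intro c
    have h1 := mem_G hg (u + c • v)
    rw [av_add, av_smul, f27_add, f27_add, mem_G hg, mem_G hg] at h1
    linear_combination h1
  have k1 := key 1
  have kc := key c
  have h3 : c * (1 - c) * (DD (av g u) (av g v) - DD u v) = 0 := by linear_combination kc - c ^ 2 * k1
  have h4 : c * (1 - c) ≠ 0 := mul_ne_zero hc0 (sub_ne_zero.2 (Ne.symm hc1))
  exact sub_eq_zero.1 ((mul_eq_zero.1 h3).resolve_left h4)

lemma inv_TT (h2 : ∃ c : F, c ≠ 0 ∧ c ≠ 1) {g : GL I27 F} (hg : g ∈ E6univ F) (u v w : I27 → F) :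
    TT (av g u) (av g v) (av g w) = TT u v w := by
  have h3 := DD_add (av g u) (av g v) (av g w)
  rw [← av_add, inv_DD h2 hg, inv_DD h2 hg, inv_DD h2 hg] at h3
  have h4 := DD_add u v w
  linear_combination h4 - h3

/-- `g` fixes the weight line `w` -/
def Fx (g : GL I27 F) (w : ℕ) : Prop := ∃ c : F, av g (e F w) = c • e F w

def PP (W : List ℕ) (g : GL I27 F) : Prop := g ∈ E6univ F ∧ ∀ w ∈ W, Fx g w

def cu (g : GL I27 F) (w x : ℕ) : F := av g (e F w) (dec x)

lemma cu_X {r : ℕ} (hr : r < 72) (t : F) (g : GL I27 F) (w : ℕ) {x : ℕ} (hx : x < 27) :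
    cu (X r t * g) w x = cu g w x + t * (if pre r x < 27 then sF F (71 - r) x * cu g w (pre r x) else 0) := by
  unfold cu
  rw [av_mul]
  have : av (X r t) (av g (e F w)) = av g (e F w) + t • (BF F r *ᵥ av g (e F w)) := X_vec r t _
  rw [this, Pi.add_apply, Pi.smul_apply, BF_v r hr _ hx]
  rfl

lemma Fx_scalar {g : GL I27 F} {w : ℕ} (hw : w < 27) {c : F} (h : av g (e F w) = c • e F w) : c ≠ 0 := by
  rintro rfl
  rw [zero_smul] at h
  exact e_ne hw (av_eq_zero h)

lemma nbeq {m n : ℕ} : Nat.beq m n = true ↔ m = n :=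
  ⟨Nat.eq_of_beq_eq_true, by rintro rfl; exact Nat.beq_refl m⟩

lemma inR_iff {W : List ℕ} {r : ℕ} : inR W r = true ↔ r < 72 ∧ ∀ w ∈ W, img r w = 27 := by
  simp only [inR, Bool.and_eq_true, List.all_eq_true, nbeq]
  constructor
  · rintro ⟨h1, h2⟩
    exact ⟨by simpa [Nat.blt] using h1, h2⟩
  · rintro ⟨h1, h2⟩
    exact ⟨by simpa [Nat.blt] using h1, h2⟩

lemma blt_iff {m n : ℕ} : Nat.blt m n = true ↔ m < n := by
  simp [Nat.blt, Nat.succ_le_iff]

lemma PP_X {W : List ℕ} {g : GL I27 F} (hg : PP W g) {r : ℕ} (hr : inR W r = true) (t : F) : PP W (X r t * g) := by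
  obtain ⟨h1, h2⟩ := inR_iff.1 hr
  refine ⟨mul_mem (X_mem_G h1 t) hg.1, ?_⟩
  intro w hw
  obtain ⟨c, hc⟩ := hg.2 w hw
  refine ⟨c, ?_⟩
  rw [av_mul, hc, av_smul]
  have : av (X r t) (e F w) = e F w + t • (BF F r *ᵥ e F w) := X_vec r t _
  rw [this, BF_e, h2 w hw, e_big le_rfl, smul_zero, smul_zero, add_zero]

lemma third_facts {a x : ℕ} (ha : a < 27) (hx : x < 27) :
    third a x ≤ 27 ∧ (third a x = 27 ∨ (third a (third a x) = x ∧ third x a = third a x ∧ third (third a x) x = a)) ∧
    (x = a ∨ rt a x < 72 ∨ third a x < 27) ∧ (¬ (x = a ∨ rt a x < 72) ∨ third a x = 27) := by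
  have := allN_iff.1 (allN_iff.1 chkT1_ok a ha) x hx
  simp only [Bool.and_eq_true, Bool.or_eq_true, nbeq, blt_iff, Bool.not_eq_true', Bool.or_eq_false_iff] at this
  obtain ⟨h1, h2, h3, h4⟩ := this
  refine ⟨Nat.le_of_ble_eq_true h1, h2, h3, ?_⟩
  rcases h4 with ⟨h5, h6⟩ | h4
  · left
    rintro (h | h)
    · subst h; simp at h5
    · rw [blt_iff.2 h] at h6; simp at h6
  · right; exact h4

lemma rt_facts {x y : ℕ} (hx : x < 27) (hy : y < 27) (h : rt x y < 72) :
    img (rt x y) x = y ∧ pre (rt x y) y = x := by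
  have := chkR1_ok
  unfold chkR1 at this
  rw [Bool.and_eq_true] at this
  have h1 := allN_iff.1 (allN_iff.1 this.2 x hx) y hy
  simp only [Bool.or_eq_true, blt_iff, nbeq] at h1
  have h2 : img (rt x y) x = y := by rcases h1 with h1 | h1 <;> omega
  refine ⟨h2, ?_⟩
  have h3 := (img_sym (r := rt x y) (y := x) (by omega)).1
  rw [h2] at h3
  exact h3

lemma sum_filter {α : Type*} (pr : α → Bool) (f : α → F) (L : List α) (h : ∀ a ∈ L, pr a = false → f a = 0) :
    (L.map f).sum = ((L.filter pr).map f).sum := by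
  induction L with
  | nil => simp
  | cons a L ih =>
    have ih' := ih (fun b hb => h b (by simp [hb]))
    rw [List.filter_cons]
    split_ifs with hp
    · simp [ih']
    · simp [ih', h a (by simp) (by simpa using hp)]

variable (h2 : ∃ c : F, c ≠ 0 ∧ c ≠ 1)
include h2

lemma kill {W : List ℕ} (hW : ∀ a ∈ W, a < 27) {w x : ℕ} (hw : w < 27) (hx : x < 27) {g : GL I27 F}
    (hg : PP W g) (hk : killB W w x = true) : cu g w x = 0 := by
  unfold killB at hk
  simp only [Bool.or_eq_true, List.any_eq_true, Bool.and_eq_true, nbeq, blt_iff, Bool.not_eq_true'] at hk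
  rcases hk with ⟨a, ha, h1, h3⟩ | ⟨hxw, a, ha, b, hb, h3⟩
  · have haw : third a w = 27 := by
      rcases (third_facts (hW a ha) hw).2.2.2 with h | h
      · exact absurd (by rcases h1 with h1 | h1
                         · exact Or.inl h1.symm
                         · exact Or.inr h1) h
      · exact h
    have t0 : ∀ v : I27 → F, TT (e F a) (e F w) v = 0 := by
      intro v; rw [TT_comm, TT_e (hW a ha) hw, if_pos haw]
    obtain ⟨c, hc⟩ := hg.2 a ha
    have h4 := inv_TT h2 hg.1 (e F a) (e F w) (av g⁻¹ (e F (third a x)))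
    rw [t0, av_inv, hc, TT_smul1, TT_e (hW a ha) h3] at h4
    have h5 := (third_facts (hW a ha) hx).2.1
    have h6 : third a (third a x) = x := by rcases h5 with h5 | h5 <;> omega
    rw [h6, if_neg (by omega)] at h4
    have h7 : ((eps a (third a x) : ℤ) : F) ≠ 0 := by
      rcases eps_cases a (third a x) with h | h <;> simp [h]
    rcases mul_eq_zero.1 h4 with h8 | h8
    · exact absurd h8 (Fx_scalar (hW a ha) hc)
    · exact (mul_eq_zero.1 h8).resolve_left h7
  · have hxw' : x ≠ w := by rintro rfl; simp at hxw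
    obtain ⟨c, hc⟩ := hg.2 a ha
    obtain ⟨d, hd⟩ := hg.2 b hb
    have h4 := inv_TT h2 hg.1 (e F a) (e F w) (e F b)
    rw [hc, hd, TT_smul1, TT_smul3, TT_e (hW a ha) (hW b hb), TT_e (hW a ha) (hW b hb), if_neg (by omega),
      if_neg (by omega), h3, e_dec hx, if_neg hxw', mul_zero] at h4
    have h7 : ((eps a b : ℤ) : F) ≠ 0 := by
      rcases eps_cases a b with h | h <;> simp [h]
    rcases mul_eq_zero.1 h4 with h8 | h8
    · exact absurd h8 (Fx_scalar (hW a ha) hc)
    · rcases mul_eq_zero.1 h8 with h9 | h9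
      · exact absurd h9 (Fx_scalar (hW b hb) hd)
      · exact (mul_eq_zero.1 h9).resolve_left h7

omit h2 in
lemma step {W : List ℕ} {w x y : ℕ} (hx : x < 27) (hy : y < 27) {g : GL I27 F} (hg : PP W g)
    (h : adjR W x y = true) (hc : cu g w x ≠ 0) : ∃ s ∈ E F, PP W (s * g) ∧ cu (s * g) w y ≠ 0 := by
  by_cases h0 : cu g w y = 0
  · have hr := (inR_iff.1 h).1
    refine ⟨X (rt x y) 1, X_mem hr 1, PP_X hg h 1, ?_⟩
    rw [cu_X hr _ _ _ hy, (rt_facts hx hy hr).2, if_pos hx, h0, zero_add, one_mul]
    exact mul_ne_zero (sF_ne _ _) hc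
  · exact ⟨1, one_mem _, by rwa [one_mul], by rwa [one_mul]⟩

omit h2 in
lemma reach {W : List ℕ} {w x : ℕ} (hw : w < 27) (hx : x < 27) {g : GL I27 F} (hg : PP W g)
    (h : reachB W w x = true) (hc : cu g w x ≠ 0) : ∃ s ∈ E F, PP W (s * g) ∧ cu (s * g) w w ≠ 0 := by
  unfold reachB at h
  simp only [Bool.or_eq_true, nbeq, List.any_eq_true, List.mem_range, Bool.and_eq_true] at h
  rcases h with h | h | ⟨b, hb, h3, h4⟩
  · subst h
    exact ⟨1, one_mem _, by rwa [one_mul], by rwa [one_mul]⟩
  · exact step hx hw hg h hc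
  · obtain ⟨s, hs, h5, h6⟩ := step (w := w) hx hb hg h3 hc
    obtain ⟨s', hs', h7, h8⟩ := step (w := w) hb hw h5 h4 h6
    exact ⟨s' * s, mul_mem hs' hs, by rwa [mul_assoc], by rwa [mul_assoc]⟩

lemma clear {W : List ℕ} (hW : ∀ a ∈ W, a < 27) {w : ℕ} (hw : w < 27) (hcl : clearB W w = true) :
    ∀ (l : List ℕ), (∀ x ∈ l, x < 27) → ∀ g : GL I27 F, PP W g → cu g w w ≠ 0 →
    ∃ s ∈ E F, PP W (s * g) ∧ cu (s * g) w w ≠ 0 ∧ ∀ x ∈ l, rt w x < 72 → cu (s * g) w x = 0
  | [], _, g, hg, hc => ⟨1, one_mem _, by rwa [one_mul], by rwa [one_mul], by simp⟩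
  | x :: l, hl, g, hg, hc => by
      obtain ⟨s, hs, h3, h4, h5⟩ := clear hW hw hcl l (fun y hy => hl y (by simp [hy])) g hg hc
      have hx : x < 27 := hl x (by simp)
      by_cases hr : rt w x < 72
      · unfold clearB at hcl
        simp only [List.all_eq_true, List.mem_range, Bool.or_eq_true, blt_iff] at hcl
        rcases hcl x hx with h | h | h
        · omega
        · refine ⟨s, hs, h3, h4, ?_⟩
          intro y hy hyr
          rcases List.mem_cons.1 hy with rfl | hy
          · exact kill h2 hW hw hx h3 h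
          · exact h5 y hy hyr
        · set r := rt w x with hrdef
          have hp : pre r x = w := (rt_facts hw hx hr).2
          have hC := allN_iff.1 (allN_iff.1 chkC_ok w hw) x hx
          simp only [Bool.or_eq_true, blt_iff, Bool.and_eq_true, nbeq, allN_iff] at hC
          rcases hC with hC | ⟨hC1, hC2⟩
          · omega
          set t : F := - cu (s * g) w x / (sF F (71 - r) x * cu (s * g) w w) with ht
          refine ⟨X r t * s, mul_mem (X_mem hr t) hs, ?_, ?_, ?_⟩
          · rw [mul_assoc]; exact PP_X h3 h t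
          · rw [mul_assoc, cu_X hr _ _ _ hw]
            have : pre r w = 27 := hC1
            rw [this, if_neg (by omega), mul_zero, add_zero]
            exact h4
          · intro y hy hyr
            rw [mul_assoc]
            by_cases hyx : y = x
            · subst hyx
              rw [cu_X hr _ _ _ hx, hp, if_pos hw, ht]
              have : sF F (71 - r) y * cu (s * g) w w ≠ 0 := mul_ne_zero (sF_ne _ _) h4
              rw [div_mul_cancel₀ _ this]
              ring
            · have hyl : y ∈ l := by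
                rcases List.mem_cons.1 hy with h | h
                · exact absurd h hyx
                · exact h
              have hy27 : y < 27 := hl y hy
              rw [cu_X hr _ _ _ hy27]
              have h6 : pre r y = 27 := by
                rcases hC2 y hy27 with h7 | h7 | h7
                · omega
                · exact absurd h7.symm hyx
                · exact h7
              rw [h6, if_neg (by omega), mul_zero, add_zero]
              exact h5 y hyl hyr
      · refine ⟨s, hs, h3, h4, ?_⟩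
        intro y hy hyr
        rcases List.mem_cons.1 hy with rfl | hy
        · exact absurd hyr hr
        · exact h5 y hy hyr

lemma white {w : ℕ} (hw : w < 27) {g : GL I27 F} (hg : g ∈ E6univ F) (hc : cu g w w ≠ 0)
    (h : ∀ x < 27, rt w x < 72 → cu g w x = 0) : Fx g w := by
  refine ⟨cu g w w, ?_⟩
  have key : ∀ x < 27, x ≠ w → cu g w x = 0 := by
    intro x hx hxw
    rcases (third_facts hw hx).2.2.1 with h3 | h3 | h3
    · exact absurd h3 hxw
    · exact h x hx h3
    · have h4 : DD (av g (e F w)) (e F (third w x)) = 0 := by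
        have := inv_DD h2 hg (e F w) (av g⁻¹ (e F (third w x)))
        rw [av_inv, DD_ee] at this
        exact this
      rw [DD_e] at h4
      have h5 := allN_iff.1 (allN_iff.1 chkD_ok w hw) x hx
      simp only [Bool.or_eq_true, nbeq, decide_eq_true_eq] at h5
      have h5' := h5.resolve_left (by omega)
      rw [sum_filter (fun τ : ℤ × ℕ × ℕ => !(Nat.blt (rt w τ.2.1) 72 || Nat.blt (rt w τ.2.2) 72)) _ _ ?_, h5'] at h4
      · simp only [List.map_cons, List.map_nil, List.sum_cons, List.sum_nil, add_zero] at h4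
        have h7 : ((eps w x : ℤ) : F) ≠ 0 := by
          rcases eps_cases w x with h | h <;> simp [h]
        have h8 := (mul_eq_zero.1 h4).resolve_left h7
        rcases le_total w x with hle | hle
        · rw [min_eq_left hle, max_eq_right hle] at h8
          exact (mul_eq_zero.1 h8).resolve_left hc
        · rw [min_eq_right hle, max_eq_left hle] at h8
          exact (mul_eq_zero.1 h8).resolve_right hc
      · intro τ hτ hpr
        have ha : τ.2.1 < 27 ∧ τ.2.2 < 27 := by
          rw [List.mem_flatMap] at hτ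
          obtain ⟨σ, hσ, hτ⟩ := hτ
          obtain ⟨a1, a2, a3⟩ := triL_ok _ hσ
          unfold ctD at hτ
          simp only [List.mem_append] at hτ
          rcases hτ with hτ | hτ | hτ <;> split_ifs at hτ <;> simp at hτ <;> subst hτ <;> simp only <;> omega
        simp only [Bool.not_eq_false', Bool.or_eq_true, blt_iff] at hpr
        have hz : av g (e F w) (dec τ.2.1) * av g (e F w) (dec τ.2.2) = 0 := by
          rcases hpr with hb | hb
          · have := h _ ha.1 hb
            unfold cu at this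
            rw [this, zero_mul]
          · have := h _ ha.2 hb
            unfold cu at this
            rw [this, mul_zero]
        rw [hz, mul_zero]
  ext y
  rw [← dec_code y]
  by_cases hy : code y = w
  · rw [hy]; simp [cu, e_dec hw]
  · have := key (code y) (code_lt y) hy
    unfold cu at this
    rw [this, Pi.smul_apply, e_dec (code_lt y), if_neg hy, smul_zero]

lemma stage {W : List ℕ} (hW : ∀ a ∈ W, a < 27) {w : ℕ} (hw : w < 27) (hs : stageB W w = true)
    {g : GL I27 F} (hg : PP W g) : ∃ s ∈ E F, PP (w :: W) (s * g) := by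
  unfold stageB at hs
  rw [Bool.and_eq_true] at hs
  obtain ⟨hcl, hA⟩ := hs
  simp only [Bool.or_eq_true] at hA
  -- a nonzero coordinate from which `w` can be reached
  have hx : ∃ x < 27, cu g w x ≠ 0 ∧ reachB W w x = true := by
    rcases hA with hA | hA | hA
    · unfold caseA at hA
      simp only [List.any_eq_true, nbeq] at hA
      obtain ⟨a, ha, b, hb, h3⟩ := hA
      refine ⟨w, hw, ?_, by simp [reachB]⟩
      obtain ⟨c, hc⟩ := hg.2 a ha
      obtain ⟨d, hd⟩ := hg.2 b hb
      have h4 := inv_TT h2 hg.1 (e F a) (e F w) (e F b)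
      rw [hc, hd, TT_smul1, TT_smul3, TT_e (hW a ha) (hW b hb), TT_e (hW a ha) (hW b hb), if_neg (by omega),
        if_neg (by omega), h3, e_dec hw, if_pos rfl, mul_one] at h4
      intro h0
      unfold cu at h0
      rw [h0, mul_zero, mul_zero, mul_zero] at h4
      rcases eps_cases a b with h | h <;> simp [h] at h4
    · unfold caseB at hA
      simp only [List.any_eq_true, Bool.and_eq_true, blt_iff, List.all_eq_true, List.mem_range, Bool.or_eq_true] at hA
      obtain ⟨a, ha, h3, h4⟩ := hA
      obtain ⟨c, hc⟩ := hg.2 a ha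
      have h5 : TT (e F a) (e F w) (e F (third a w)) ≠ 0 := by
        have h6 := (third_facts (hW a ha) hw).2.1
        have h7 : third a (third a w) = w := by rcases h6 with h6 | h6 <;> omega
        rw [TT_e (hW a ha) h3, h7, if_neg (by omega), e_dec hw, if_pos rfl, mul_one]
        rcases eps_cases a (third a w) with h | h <;> simp [h]
      by_contra hcon
      push Not at hcon
      apply h5
      rw [← inv_TT h2 hg.1, hc, TT_smul1]
      rw [TT_zero, mul_zero]
      intro n hn
      rw [TT_e (hW a ha) hn]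
      split_ifs with h8
      · rfl
      · have h9 : third a n < 27 := lt_of_le_of_ne (third_facts (hW a ha) hn).1 h8
        have h10 : cu g w (third a n) = 0 := by
          by_contra h11
          have h12 := hcon _ h9 h11
          rcases h4 _ h9 with h13 | h13 | h13
          · have h14 := (third_facts (hW a ha) hn).2.1
            rcases h14 with h14 | h14 <;> omega
          · exact h11 (kill h2 hW hw h9 hg h13)
          · exact h12 h13
        unfold cu at h10
        rw [h10, mul_zero]
    · unfold caseC at hA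
      simp only [List.all_eq_true, List.mem_range, Bool.or_eq_true] at hA
      by_contra hcon
      push Not at hcon
      apply e_ne (F := F) hw
      apply av_eq_zero (g := g)
      ext y
      rw [← dec_code y]
      by_contra h0
      have h1 : cu g w (code y) ≠ 0 := h0
      have h3 := hcon _ (code_lt y) h1
      rcases hA _ (code_lt y) with h4 | h4
      · exact h1 (kill h2 hW hw (code_lt y) hg h4)
      · exact h3 h4
  obtain ⟨x, hx, hc, hr⟩ := hx
  obtain ⟨s, hs, h3, h4⟩ := reach hw hx hg hr hc
  obtain ⟨s', hs', h5, h6, h7⟩ := clear h2 hW hw hcl (List.range 27) (fun y hy => List.mem_range.1 hy) _ h3 h4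
  rw [← mul_assoc] at h5 h6 h7
  refine ⟨s' * s, mul_mem hs' hs, h5.1, ?_⟩
  intro y hy
  rcases List.mem_cons.1 hy with rfl | hy
  · exact white h2 hw h5.1 h6 (fun z hz hzr => h7 z (List.mem_range.2 hz) hzr)
  · exact h5.2 y hy

lemma run : ∀ (l W : List ℕ), (∀ a ∈ W, a < 27) → (∀ a ∈ l, a < 27) → runB W l = true → ∀ g : GL I27 F, PP W g →
    ∃ s ∈ E F, s * g ∈ E6univ F ∧ ∀ a, a ∈ W ∨ a ∈ l → Fx (s * g) a
  | [], W, _, _, _, g, hg => ⟨1, one_mem _, by rw [one_mul]; exact hg.1, by
      intro a ha; rw [one_mul]; exact hg.2 a (by simpa using ha)⟩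
  | w :: l, W, hW, hl, hr, g, hg => by
      have hr' : (stageB W w && runB (w :: W) l) = true := hr
      rw [Bool.and_eq_true] at hr'
      have hw : w < 27 := hl w (by simp)
      obtain ⟨s, hs, h3⟩ := stage h2 hW hw hr'.1 hg
      obtain ⟨s', hs', h4, h5⟩ := run l (w :: W) (by
        intro a ha; rcases List.mem_cons.1 ha with rfl | ha
        · exact hw
        · exact hW a ha) (fun a ha => hl a (by simp [ha])) hr'.2 _ h3
      refine ⟨s' * s, mul_mem hs' hs, by rwa [mul_assoc], ?_⟩
      intro a ha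
      rw [mul_assoc]
      apply h5
      rcases ha with ha | ha
      · exact Or.inl (by simp [ha])
      · rcases List.mem_cons.1 ha with rfl | ha
        · exact Or.inl (by simp)
        · exact Or.inr ha

theorem exists_diag {g : GL I27 F} (hg : g ∈ E6univ F) : ∃ s ∈ E F, s * g ∈ E6univ F ∧ ∀ a < 27, Fx (s * g) a := by
  obtain ⟨s, hs, h3, h4⟩ := run h2 ord [] (by simp) (by decide) run_ok g ⟨hg, by simp⟩
  exact ⟨s, hs, h3, fun a ha => h4 a (Or.inr (ord_all a ha))⟩

end Cfsg.Agent.CubE6
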