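import Cfsg.Agent.CubE6.Stage
/-!
The diagonal isometries, and the equality of the isometry group with the group generated by root elements.
-/
set_option autoImplicit false

namespace Cfsg.Agent.CubE6

open Cfsg.Lie Cfsg.Agent.Chev Matrix

variable {F : Type*} [Field F]

lemma X_e (r : ℕ) (t : F) (n : ℕ) : av (X r t) (e F n) = e F n + (t * sF F r n) • e F (img r n) := by
  have : av (X r t) (e F n) = e F n + t • (BF F r *ᵥ e F n) := X_vec r t _
  rw [this, BF_e, smul_smul]

def nn (r : ℕ) (t : F) : GL I27 F := X r t * X (71 - r) (-t⁻¹) * X r t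
def hh (r : ℕ) (t : F) : GL I27 F := nn r t * nn r (-1)

lemma hh_mem {r : ℕ} (hr : r < 72) (t : F) : hh r t ∈ E F := by
  unfold hh nn
  have := fun (t : F) => X_mem hr t
  have h2 := fun (t : F) => X_mem (show 71 - r < 72 by omega) t
  exact mul_mem (mul_mem (mul_mem (this _) (h2 _)) (this _)) (mul_mem (mul_mem (this _) (h2 _)) (this _))

/-- action of `nn` on a pair `m = n - r`, `n` -/
lemma nn_pair {r m n : ℕ} (h1 : img r m = n) (hn : n < 27) {t : F} (ht : t ≠ 0) :
    av (nn r t) (e F n) = -(sF F r m * t⁻¹) • e F m ∧ av (nn r t) (e F m) = (t * sF F r m) • e F n := by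
  have h2 := img_sym (r := r) (y := m) (by omega)
  rw [h1] at h2
  have h3 : img r n = 27 := by rw [← h1, img_img]
  have h4 : img (71 - r) m = 27 := by rw [← h2.1, img_img]
  have h5 : sF F (71 - r) n = sF F r m := by unfold sF; rw [h2.2]
  have hs : sF F r m * sF F r m = 1 := sF_sq _ _
  have a1 : ∀ t : F, av (X r t) (e F n) = e F n := by
    intro t; rw [X_e, h3, e_big le_rfl, smul_zero, add_zero]
  have a2 : ∀ t : F, av (X r t) (e F m) = e F m + (t * sF F r m) • e F n := by
    intro t; rw [X_e, h1]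
  have a3 : ∀ t : F, av (X (71 - r) t) (e F n) = e F n + (t * sF F r m) • e F m := by
    intro t; rw [X_e, h2.1, h5]
  have a4 : ∀ t : F, av (X (71 - r) t) (e F m) = e F m := by
    intro t; rw [X_e, h4, e_big le_rfl, smul_zero, add_zero]
  constructor
  · unfold nn
    rw [av_mul, av_mul, a1, a3, av_add, av_smul, a1, a2]
    rw [smul_add, smul_smul]
    have : -t⁻¹ * sF F r m * (t * sF F r m) = -1 := by
      field_simp
      linear_combination -hs
    rw [this]
    module
  · unfold nn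
    rw [av_mul, av_mul, a2, av_add, av_smul, a4, a3]
    rw [smul_add, smul_smul]
    have : t * sF F r m * (-t⁻¹ * sF F r m) = -1 := by
      field_simp
      linear_combination -hs
    rw [this]
    have : e F m + ((t * sF F r m) • e F n + (-1 : F) • e F m) = (t * sF F r m) • e F n := by module
    rw [this, av_smul, a1]

lemma hh_pos {r n : ℕ} (hr : r < 72) (h : pre r n < 27) {t : F} (ht : t ≠ 0) : av (hh r t) (e F n) = t • e F n := by
  have hn : n < 27 := (img_lt h).2
  have h1 := img_sym h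
  rw [show 71 - (71 - r) = r by omega] at h1
  have h2 : img r (pre r n) = n := h1.1
  obtain ⟨b1, _⟩ := nn_pair (F := F) h2 hn (t := -1) (by simp)
  obtain ⟨_, b2⟩ := nn_pair (F := F) h2 hn ht
  unfold hh
  rw [av_mul, b1, av_smul, b2, smul_smul]
  have hs : sF F r (pre r n) * sF F r (pre r n) = 1 := sF_sq _ _
  congr 1
  rw [inv_neg, inv_one]
  linear_combination t * hs

lemma hh_neg {r n : ℕ} (h : img r n < 27) {t : F} (ht : t ≠ 0) : av (hh r t) (e F n) = t⁻¹ • e F n := by
  obtain ⟨_, b1⟩ := nn_pair (F := F) (rfl : img r n = img r n) h (t := -1) (by simp)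
  obtain ⟨b2, _⟩ := nn_pair (F := F) (rfl : img r n = img r n) h ht
  unfold hh
  rw [av_mul, b1, av_smul, b2, smul_smul]
  have hs : sF F r n * sF F r n = 1 := sF_sq _ _
  congr 1
  linear_combination t⁻¹ * hs

lemma hh_zero {r n : ℕ} (h : pre r n = 27) (h' : img r n = 27) (t : F) : av (hh r t) (e F n) = e F n := by
  have a1 : ∀ t : F, av (X r t) (e F n) = e F n := by
    intro t; rw [X_e, h', e_big le_rfl, smul_zero, add_zero]
  have a2 : ∀ t : F, av (X (71 - r) t) (e F n) = e F n := by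
    intro t; rw [X_e, show img (71 - r) n = 27 from h, e_big le_rfl, smul_zero, add_zero]
  unfold hh nn
  simp only [av_mul, a1, a2]

lemma img_lt_or {r n : ℕ} : img r n < 27 ∨ img r n = 27 := by
  have := img_le (r := r) (y := n); omega

lemma hh_Fx {r : ℕ} (hr : r < 72) {t : F} (ht : t ≠ 0) (n : ℕ) : Fx (hh r t) n := by
  rcases img_lt_or (r := 71 - r) (n := n) with h | h
  · exact ⟨t, hh_pos hr h ht⟩
  · rcases img_lt_or (r := r) (n := n) with h' | h'
    · exact ⟨t⁻¹, hh_neg h' ht⟩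
    · exact ⟨1, by rw [hh_zero h h', one_smul]⟩

lemma Fx_mul {g h : GL I27 F} {n : ℕ} (hg : Fx g n) (hh : Fx h n) : Fx (g * h) n := by
  obtain ⟨c, hc⟩ := hg
  obtain ⟨d, hd⟩ := hh
  exact ⟨d * c, by rw [av_mul, hd, av_smul, hc, smul_smul]⟩

lemma torus : ∀ (l : List (ℕ × ℕ)) (K : List ℕ), torB K l = true → ∀ g : GL I27 F, g ∈ E6univ F →
    (∀ n < 27, Fx g n) → (∀ k ∈ K, av g (e F k) = e F k) →
    ∃ s ∈ E F, s * g ∈ E6univ F ∧ (∀ n < 27, Fx (s * g) n) ∧
      ∀ k, k ∈ K ∨ k ∈ l.map Prod.fst → av (s * g) (e F k) = e F k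
  | [], K, _, g, hg, hd, hK => ⟨1, one_mem _, by rwa [one_mul], by simpa using hd, by
      intro k hk; rw [one_mul]; exact hK k (by simpa using hk)⟩
  | p :: l, K, hB, g, hg, hd, hK => by
      have hB' : ((Nat.blt p.2 72 && (Nat.blt (pre p.2 p.1) 27 &&
        K.all (fun k => Nat.beq (pre p.2 k) 27 && Nat.beq (img p.2 k) 27))) && torB (p.1 :: K) l) = true := hB
      simp only [Bool.and_eq_true, blt_iff, List.all_eq_true, nbeq] at hB'
      obtain ⟨⟨hr, hp, hKK⟩, hB2⟩ := hB'
      have hx : p.1 < 27 := (img_lt hp).2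
      obtain ⟨c, hc⟩ := hd p.1 hx
      have hc0 : c ≠ 0 := Fx_scalar hx hc
      have hm : hh p.2 c⁻¹ ∈ E F := hh_mem hr _
      obtain ⟨s, hs, h3, h4, h5⟩ := torus l (p.1 :: K) hB2 (hh p.2 c⁻¹ * g) (mul_mem (E_le hm) hg)
        (fun n hn => Fx_mul (hh_Fx hr (inv_ne_zero hc0) n) (hd n hn)) (by
          intro k hk
          rw [av_mul]
          rcases List.mem_cons.1 hk with rfl | hk
          · rw [hc, av_smul, hh_pos hr hp (inv_ne_zero hc0), smul_smul, mul_inv_cancel₀ hc0, one_smul]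
          · rw [hK k hk, hh_zero (hKK k hk).1 (hKK k hk).2])
      refine ⟨s * hh p.2 c⁻¹, mul_mem hs hm, by rwa [mul_assoc], by simpa only [mul_assoc] using h4, ?_⟩
      intro k hk
      rw [mul_assoc]
      apply h5
      rcases hk with hk | hk
      · exact Or.inl (by simp [hk])
      · rw [List.map_cons, List.mem_cons] at hk
        rcases hk with hk | hk
        · exact Or.inl (by simp [hk])
        · exact Or.inr hk

lemma closure_fix (h2 : ∃ c : F, c ≠ 0 ∧ c ≠ 1) {g : GL I27 F} (hg : g ∈ E6univ F) (hd : ∀ n < 27, Fx g n) :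
    ∀ (l : List (ℕ × ℕ × ℕ)) (K : List ℕ), cloB K l = true → (∀ k ∈ K, k < 27 ∧ av g (e F k) = e F k) →
    ∀ k, k ∈ K ∨ k ∈ l.map (fun p => p.2.2) → av g (e F k) = e F k
  | [], K, _, hK, k, hk => (hK k (by simpa using hk)).2
  | p :: l, K, hB, hK, k, hk => by
      have hB' : ((Nat.blt p.2.2 27 && (K.contains p.1 && (K.contains p.2.1 && Nat.beq (third p.1 p.2.1) p.2.2))) &&
        cloB (p.2.2 :: K) l) = true := hB
      simp only [Bool.and_eq_true, List.contains_iff_mem, nbeq, blt_iff] at hB'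
      obtain ⟨⟨h27, ha, hb, h3⟩, hB2⟩ := hB'
      obtain ⟨ha1, ha2⟩ := hK _ ha
      obtain ⟨hb1, hb2⟩ := hK _ hb
      have hfix : av g (e F p.2.2) = e F p.2.2 := by
        obtain ⟨c, hc⟩ := hd _ h27
        have h4 := inv_TT h2 hg (e F p.1) (e F p.2.2) (e F p.2.1)
        rw [ha2, hb2, hc, TT_smul2, TT_e ha1 hb1, h3, if_neg (by omega), e_dec h27, if_pos rfl, mul_one] at h4
        have h5 : c = 1 := by
          have h7 : ((eps p.1 p.2.1 : ℤ) : F) ≠ 0 := by
            rcases eps_cases p.1 p.2.1 with h | h <;> simp [h]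
          exact mul_right_cancel₀ h7 (by rw [h4, one_mul])
        rw [hc, h5, one_smul]
      apply closure_fix h2 hg hd l (p.2.2 :: K) hB2 _ k
      · rcases hk with hk | hk
        · exact Or.inl (by simp [hk])
        · rw [List.map_cons, List.mem_cons] at hk
          rcases hk with hk | hk
          · exact Or.inl (by simp [hk])
          · exact Or.inr hk
      · intro k hk
        rcases List.mem_cons.1 hk with rfl | hk
        · exact ⟨h27, hfix⟩
        · exact hK k hk

lemma eq_one {g : GL I27 F} (h : ∀ n < 27, av g (e F n) = e F n) : g = 1 := by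
  apply Units.ext
  apply mat_ext
  intro n hn
  rw [Units.val_one, Matrix.one_mulVec]
  exact h n hn

theorem G_le_E (h2 : ∃ c : F, c ≠ 0 ∧ c ≠ 1) : E6univ F ≤ E F := by
  intro g hg
  obtain ⟨s, hs, h3, h4⟩ := exists_diag h2 hg
  obtain ⟨s', hs', h5, h6, h7⟩ := torus torX [] tor_ok (s * g) h3 h4 (by simp)
  have h8 : s' * (s * g) = 1 := by
    apply eq_one
    intro n hn
    have hK : ∀ k ∈ torX.map Prod.fst, k < 27 ∧ av (s' * (s * g)) (e F k) = e F k := by
      intro k hk
      refine ⟨?_, h7 k (Or.inr hk)⟩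
      revert k; decide
    apply closure_fix h2 h5 h6 clo (torX.map Prod.fst) clo_ok hK n
    exact (clo_all n hn).symm
  have h9 : g = (s' * s)⁻¹ := by
    rw [eq_comm, inv_eq_iff_mul_eq_one, mul_assoc]; exact h8
  rw [h9]
  exact inv_mem (mul_mem hs' hs)

theorem G_eq_E (h2 : ∃ c : F, c ≠ 0 ∧ c ≠ 1) : E6univ F = E F := le_antisymm (G_le_E h2) E_le

end Cfsg.Agent.CubE6
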